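import Cfsg.Agent.Lib.ShultGross.Prim
import Mathlib.NumberTheory.Multiplicity

set_option autoImplicit false

/-! An element of prime power order without fixed points on a `q`-group and on a module of coprime characteristic. -/

namespace Cfsg.Agent.Lib.ShultGross

open Cfsg.Agent.Lib.HallHigman
open scoped commutatorElement

universe u v w

/-- An index divisible by enough of `p` is large. -/
theorem pow_le_of_dvd {p q m n a j e : ℕ} (hp : p.Prime) (hp2 : p ≠ 2) (hq : q.Prime) (hm : 1 ≤ m) (hn : n = m + a)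
    (hj : 1 ≤ j) (hD : q ^ j + 1 = p ^ m) (he : 1 ≤ e) (hdvd : p ^ n ∣ q ^ e - 1) :
    (q ^ j) ^ (2 * p ^ a) ≤ q ^ e := by
  haveI := Fact.mk hp
  have hq2 : 2 ≤ q ^ j := hq.two_le.trans (Nat.le_self_pow (by omega) q)
  have h2j : 2 ≤ p ^ m := by omega
  have hsq : ((q : ZMod (p ^ m)) ^ j) ^ 2 = 1 := by
    have h : ((q ^ j + 1 : ℕ) : ZMod (p ^ m)) = 0 := by rw [hD]; exact ZMod.natCast_self _
    push_cast at h
    rw [eq_neg_of_add_eq_zero_left h, neg_one_sq]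
  have hqe : (q : ZMod (p ^ m)) ^ e = 1 := by
    have h1 : p ^ m ∣ q ^ e - 1 := (pow_dvd_pow p (by omega)).trans hdvd
    have h2 := (ZMod.natCast_eq_natCast_iff' _ _ (p ^ m)).mpr
      ((Nat.modEq_iff_dvd' (Nat.one_le_pow e q hq.pos)).mpr h1).symm
    push_cast at h2
    exact h2
  have hred : (q : ZMod (p ^ m)) ^ (e % (2 * j)) = 1 := by
    rw [← hqe]
    conv_rhs => rw [← Nat.div_add_mod e (2 * j), pow_add, pow_mul, mul_comm 2 j, pow_mul, hsq, one_pow, one_mul]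
    rw [mul_comm 2 j]
  have hsmallr : ∀ r, r < 2 * j → 0 < r → (q : ZMod (p ^ m)) ^ r ≠ 1 := by
    intro r hr hr0 h
    have hnat : ∀ s : ℕ, 0 < s → s ≤ j → (q : ZMod (p ^ m)) ^ s ≠ 1 ∧ ∀ _ : s < j, (q : ZMod (p ^ m)) ^ s + 1 ≠ 0 := by
      intro s hs hsj
      have hle : q ^ s ≤ q ^ j := Nat.pow_le_pow_right hq.pos hsj
      have h1s : 2 ≤ q ^ s := hq.two_le.trans (Nat.le_self_pow (by omega) q)
      refine ⟨fun h1 => ?_, fun hlt h1 => ?_⟩
      · have h2 : ((q ^ s : ℕ) : ZMod (p ^ m)) = ((1 : ℕ) : ZMod (p ^ m)) := by push_cast; exact h1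
        have h3 := congrArg ZMod.val h2
        rw [ZMod.val_natCast, ZMod.val_natCast, Nat.mod_eq_of_lt (by omega), Nat.mod_eq_of_lt (by omega)] at h3
        omega
      · have h2 : ((q ^ s + 1 : ℕ) : ZMod (p ^ m)) = 0 := by push_cast; exact h1
        rw [ZMod.natCast_eq_zero_iff] at h2
        have h3 := Nat.le_of_dvd (by omega) h2
        have h4 : q ^ s < q ^ j := Nat.pow_lt_pow_right hq.one_lt hlt
        omega
    rcases Nat.lt_or_ge r j with hlt | hge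
    · exact (hnat r hr0 hlt.le).1 h
    rcases Nat.eq_or_lt_of_le hge with rfl | hgt
    · exact (hnat j hr0 le_rfl).1 h
    · have h1 : (q : ZMod (p ^ m)) ^ j * (q : ZMod (p ^ m)) ^ (r - j) = 1 := by
        rw [← pow_add, Nat.add_sub_cancel' hge]; exact h
      have hneg : (q : ZMod (p ^ m)) ^ j = -1 := by
        have h' : ((q ^ j + 1 : ℕ) : ZMod (p ^ m)) = 0 := by rw [hD]; exact ZMod.natCast_self _
        push_cast at h'
        exact eq_neg_of_add_eq_zero_left h'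
      rw [hneg, neg_one_mul, neg_eq_iff_eq_neg] at h1
      exact (hnat (r - j) (by omega) (by omega)).2 (by omega) (by rw [h1, neg_add_cancel])
  have hmod : e % (2 * j) = 0 := by
    by_contra h
    exact hsmallr _ (Nat.mod_lt _ (by omega)) (Nat.pos_of_ne_zero h) hred
  obtain ⟨f, rfl⟩ := Nat.dvd_of_mod_eq_zero hmod
  have hf : f ≠ 0 := by rintro rfl; simp at he
  set D2 := q ^ (2 * j) with hD2
  have hD2eq : D2 - 1 = p ^ m * (p ^ m - 2) := by
    obtain ⟨N, hN⟩ : ∃ N, p ^ m = N + 2 := ⟨p ^ m - 2, by omega⟩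
    have hDN : q ^ j = N + 1 := by omega
    rw [hD2, mul_comm 2 j, pow_mul, hN, hDN, Nat.add_sub_cancel]
    have : (N + 1) ^ 2 = (N + 2) * N + 1 := by ring
    omega
  have hpm2 : ¬ p ∣ p ^ m - 2 := by
    intro h
    have h1 : p ∣ p ^ m := dvd_pow_self p (by omega)
    have h2 : p ∣ 2 := by
      have h3 := Nat.dvd_sub h1 h
      rwa [Nat.sub_sub_self h2j] at h3
    exact hp2 ((Nat.prime_dvd_prime_iff_eq hp Nat.prime_two).mp h2)
  have hne0 : p ^ m - 2 ≠ 0 := fun h => hpm2 (h ▸ dvd_zero p)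
  have hv : padicValNat p (D2 - 1) = m := by
    rw [hD2eq, padicValNat.mul (pow_ne_zero _ hp.ne_zero) hne0, padicValNat.prime_pow,
      padicValNat.eq_zero_of_not_dvd hpm2, add_zero]
  have hxy : p ∣ D2 - 1 := by rw [hD2eq]; exact Dvd.dvd.mul_right (dvd_pow_self p (by omega)) _
  have h1D : 1 < D2 := Nat.one_lt_pow (by omega) hq.one_lt
  have hx : ¬ p ∣ D2 := fun h => by
    have h3 := Nat.dvd_sub h hxy
    rw [Nat.sub_sub_self h1D.le] at h3
    exact hp.not_dvd_one h3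
  have hkey := padicValNat.pow_sub_pow (hp.odd_of_ne_two hp2) h1D hxy hx hf
  rw [one_pow, hv] at hkey
  have hge : n ≤ padicValNat p (D2 ^ f - 1) := by
    refine (padicValNat_dvd_iff_le ?_).mp ?_
    · exact Nat.sub_ne_zero_of_lt (Nat.one_lt_pow hf h1D)
    · rw [hD2, ← pow_mul]; exact hdvd
  have hfa : p ^ a ∣ f := (padicValNat_dvd_iff_le hf).mpr (by omega)
  rw [← pow_mul]
  refine Nat.pow_le_pow_right hq.pos ?_
  calc j * (2 * p ^ a) = 2 * j * p ^ a := by ring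
    _ ≤ 2 * j * f := Nat.mul_le_mul_left _ (Nat.le_of_dvd (Nat.pos_of_ne_zero hf) hfa)

variable {K : Type w} [Field K]

theorem key_aux [IsAlgClosed K] {p q : ℕ} [Fact p.Prime] [Fact q.Prime] (hp2 : p ≠ 2) (hqp : q ≠ p)
    (hpK : (p : K) ≠ 0) (hqK : (q : K) ≠ 0) (M : ℕ) :
    ∀ (G : Type u) [Group G] (V : Type v) [AddCommGroup V] [Module K V] [FiniteDimensional K V]
      (ρ : G →* Module.End K V) (Q : Subgroup G) [Finite Q] (x : G) (n : ℕ),
      Module.finrank K V + Nat.card Q = M → n ≠ 0 → IsPGroup q Q → x ∈ Subgroup.normalizer (Q : Set G) →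
      x ^ p ^ n = 1 → (∀ u ∈ Q, x * u * x⁻¹ = u → u = 1) → ∑ i ∈ Finset.range (p ^ n), ρ (x ^ i) = 0 →
      ∀ u ∈ Q, ρ (x ^ p ^ (n - 1) * u * (x ^ p ^ (n - 1))⁻¹) = ρ u := by
  induction M using Nat.strong_induction_on with
  | _ M ih =>
  intro G _ V _ _ _ ρ Q _ x n hM hn hQ hxQ hxN hfpf hsum u0 hu0
  classical
  by_contra hu0ne
  have hp : p.Prime := Fact.out
  have hq : q.Prime := Fact.out
  set y := x ^ p ^ (n - 1) with hy
  have hxy : Commute x y := Commute.self_pow x _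
  have hyp : y ^ p = 1 := by
    rw [hy, ← pow_mul, ← pow_succ, Nat.sub_add_cancel (Nat.one_le_iff_ne_zero.mpr hn), hxN]
  have hyQ : y ∈ Subgroup.normalizer (Q : Set G) := Subgroup.pow_mem _ hxQ _
  have hyc : ∀ v ∈ Q, y * v * y⁻¹ ∈ Q := fun v hv => (Subgroup.mem_normalizer_iff.mp hyQ v).mp hv
  have hxc : ∀ (i : ℕ), ∀ v ∈ Q, x ^ i * v * (x ^ i)⁻¹ ∈ Q := fun i v hv =>
    (Subgroup.mem_normalizer_iff.mp (Subgroup.pow_mem _ hxQ i) v).mp hv
  -- no smaller invariant subgroup is moved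
  have hsmall : ∀ Q' : Subgroup G, Q' < Q → x ∈ Subgroup.normalizer (Q' : Set G) →
      ∀ u ∈ Q', ρ (y * u * y⁻¹) = ρ u := by
    intro Q' hlt hxQ' u hu
    haveI : Finite Q' := Finite.of_injective _ (Subgroup.inclusion_injective hlt.le)
    have hcard : Nat.card Q' < Nat.card Q := by
      refine lt_of_le_of_ne (Nat.le_of_dvd Nat.card_pos (Subgroup.card_dvd_of_le hlt.le)) fun he => hlt.ne ?_
      exact Subgroup.eq_of_le_of_card_ge hlt.le he.ge
    exact ih _ (by omega : Module.finrank K V + Nat.card Q' < M) G V ρ Q' x n rfl hn (hQ.to_le hlt.le)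
      hxQ' hxN (fun u hu => hfpf u (hlt.le hu)) hsum u hu
  -- no invariant subspace
  have hirr : ∀ W : Submodule K V, Inv ρ Q W → (∀ v ∈ W, ρ x v ∈ W) → W = ⊥ ∨ W = ⊤ := by
    intro W hW hxW
    by_contra hcon
    obtain ⟨hb, ht⟩ := not_or.mp hcon
    set H := stab ρ W
    have hQH : Q ≤ H := inv_iff_le_stab.mp hW
    have hxH : x ∈ H := mem_stab hxW
    have hInv : Inv ρ H W := fun m hm v hv => apply_mem_of_mem_stab hm hv
    have hlt1 : Module.finrank K W < Module.finrank K V := Submodule.finrank_lt ht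
    have hlt2 : Module.finrank K (V ⧸ W) < Module.finrank K V := by
      have h1 := Submodule.finrank_quotient_add_finrank W
      have : 0 < Module.finrank K W := by
        rw [Nat.pos_iff_ne_zero, Ne, Submodule.finrank_eq_zero]; exact hb
      omega
    haveI : Finite (Q.subgroupOf H) := Finite.of_equiv Q (Subgroup.subgroupOfEquivOfLe hQH).toEquiv.symm
    have hcard : Nat.card (Q.subgroupOf H) = Nat.card Q :=
      Nat.card_congr (Subgroup.subgroupOfEquivOfLe hQH).toEquiv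
    have hQ' : IsPGroup q (Q.subgroupOf H) := hQ.of_equiv (Subgroup.subgroupOfEquivOfLe hQH).symm
    have hxQ' : (⟨x, hxH⟩ : H) ∈ Subgroup.normalizer ((Q.subgroupOf H) : Set H) := by
      rw [Subgroup.mem_normalizer_iff]
      exact fun h => Subgroup.mem_normalizer_iff.mp hxQ (h : G)
    have hxN' : (⟨x, hxH⟩ : H) ^ p ^ n = 1 := Subtype.ext hxN
    have hfpf' : ∀ u ∈ Q.subgroupOf H, (⟨x, hxH⟩ : H) * u * (⟨x, hxH⟩ : H)⁻¹ = u → u = 1 :=
      fun u hu h => Subtype.ext (hfpf (u : G) hu (congrArg Subtype.val h))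
    have h1 := ih _ (by omega : Module.finrank K W + Nat.card (Q.subgroupOf H) < M)
        H W (restr ρ H W hInv) (Q.subgroupOf H) ⟨x, hxH⟩ n rfl hn hQ' hxQ' hxN' hfpf'
        (LinearMap.ext fun w => Subtype.ext (by
          rw [LinearMap.sum_apply, Submodule.coe_sum]
          have := LinearMap.congr_fun hsum (w : V)
          rw [LinearMap.sum_apply] at this
          exact this)) ⟨u0, hQH hu0⟩ hu0
    have h2 := ih _ (by omega : Module.finrank K (V ⧸ W) + Nat.card (Q.subgroupOf H) < M)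
        H (V ⧸ W) (quot ρ H W hInv) (Q.subgroupOf H) ⟨x, hxH⟩ n rfl hn hQ' hxQ' hxN' hfpf'
        (LinearMap.ext fun w => by
          obtain ⟨v, rfl⟩ := Submodule.Quotient.mk_surjective W w
          rw [LinearMap.sum_apply, LinearMap.zero_apply]
          simp only [quot_mk, SubmonoidClass.coe_pow]
          have := congrArg W.mkQ (LinearMap.congr_fun hsum v)
          rw [LinearMap.sum_apply, map_sum, LinearMap.zero_apply, map_zero] at this
          exact this) ⟨u0, hQH hu0⟩ hu0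
    apply hu0ne
    set c := u0⁻¹ * (y * u0 * y⁻¹) with hc
    have hcQ : c ∈ Q := Q.mul_mem (Q.inv_mem hu0) (hyc u0 hu0)
    have hA1 : ∀ w ∈ W, ρ c w = w := by
      intro w hw
      have := congrArg Subtype.val (LinearMap.congr_fun h1 ⟨w, hw⟩)
      rw [restr_coe, restr_coe] at this
      rw [hc, rho_mul, show ρ (y * u0 * y⁻¹) w = ρ u0 w from this, rho_inv_apply]
    have hA2 : ∀ v, ρ c v - v ∈ W := by
      intro v
      have := LinearMap.congr_fun h2 (Submodule.Quotient.mk v)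
      rw [quot_mk, quot_mk, Submodule.Quotient.eq] at this
      have h3 := hW u0⁻¹ (Q.inv_mem hu0) _ this
      rw [map_sub, rho_inv_apply] at h3
      rw [hc, rho_mul]
      exact h3
    obtain ⟨e, he⟩ := hQ ⟨c, hcQ⟩
    have hone : ρ c = 1 := by
      refine eq_one_of_pow_prime_pow (e := e) hqK (LinearMap.ext fun v => ?_) ?_
      · show ρ c (ρ c v - v) - (ρ c v - v) = 0
        rw [hA1 _ (hA2 v), sub_self]
      · rw [← map_pow, show c ^ q ^ e = 1 from congrArg Subtype.val he, map_one]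
    rw [show y * u0 * y⁻¹ = u0 * c by rw [hc, mul_inv_cancel_left], map_mul, hone, mul_one]
  haveI : Nontrivial V := by
    by_contra h
    rw [not_nontrivial_iff_subsingleton] at h
    exact hu0ne (LinearMap.ext fun v => Subsingleton.elim _ _)
  -- `Q` is generated by the commutators with `y`
  let cy : G → G := fun v => v⁻¹ * (y * v * y⁻¹)
  have hcyQ : ∀ v ∈ Q, cy v ∈ Q := fun v hv => Q.mul_mem (Q.inv_mem hv) (hyc v hv)
  have hgen : Subgroup.closure (cy '' (Q : Set G)) = Q := by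
    have hle : Subgroup.closure (cy '' (Q : Set G)) ≤ Q := by
      rw [Subgroup.closure_le]
      rintro _ ⟨v, hv, rfl⟩
      exact hcyQ v hv
    by_contra hne'
    have hxcl : ∀ g ∈ Subgroup.normalizer (Q : Set G), Commute g y →
        ∀ c ∈ Subgroup.closure (cy '' (Q : Set G)), g * c * g⁻¹ ∈ Subgroup.closure (cy '' (Q : Set G)) := by
      intro g hg hgy c hc
      induction hc using Subgroup.closure_induction with
      | mem z hz =>
        obtain ⟨v, hv, rfl⟩ := hz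
        refine Subgroup.subset_closure ⟨g * v * g⁻¹, (Subgroup.mem_normalizer_iff.mp hg v).mp hv, ?_⟩
        have h1 : y * g = g * y := hgy.symm.eq
        have h2 : g⁻¹ * y⁻¹ = y⁻¹ * g⁻¹ := by rw [← mul_inv_rev, ← mul_inv_rev, h1]
        show (g * v * g⁻¹)⁻¹ * (y * (g * v * g⁻¹) * y⁻¹) = g * (v⁻¹ * (y * v * y⁻¹)) * g⁻¹
        calc (g * v * g⁻¹)⁻¹ * (y * (g * v * g⁻¹) * y⁻¹)
            = g * v⁻¹ * g⁻¹ * ((y * g) * v * (g⁻¹ * y⁻¹)) := by group
          _ = g * v⁻¹ * g⁻¹ * ((g * y) * v * (y⁻¹ * g⁻¹)) := by rw [h1, h2]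
          _ = _ := by group
      | one => simp
      | mul a b _ _ iha ihb =>
        convert Subgroup.mul_mem _ iha ihb using 1
        group
      | inv a _ iha =>
        convert Subgroup.inv_mem _ iha using 1
        group
    have hxnorm : x ∈ Subgroup.normalizer ((Subgroup.closure (cy '' (Q : Set G)) : Subgroup G) : Set G) := by
      rw [Subgroup.mem_normalizer_iff]
      refine fun h => ⟨hxcl x hxQ hxy h, fun hh => ?_⟩
      have := hxcl x⁻¹ (Subgroup.inv_mem _ hxQ) hxy.inv_left _ hh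
      simpa [mul_assoc] using this
    have hfix := hsmall _ (lt_of_le_of_ne hle hne') hxnorm
    apply hu0ne
    set c := cy u0 with hc
    have hcmem : c ∈ Subgroup.closure (cy '' (Q : Set G)) := Subgroup.subset_closure ⟨u0, hu0, rfl⟩
    have hcy := hfix c hcmem
    have hu0c : y * u0 * y⁻¹ = u0 * c := by simp only [hc, cy, mul_inv_cancel_left]
    have hiter : ∀ j : ℕ, ρ (y ^ j * u0 * (y ^ j)⁻¹) = ρ (u0 * c ^ j) := by
      intro j
      induction j with
      | zero => simp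
      | succ j ihj =>
        rw [show y ^ (j + 1) * u0 * (y ^ (j + 1))⁻¹ = y * (y ^ j * u0 * (y ^ j)⁻¹) * y⁻¹ by
            rw [pow_succ']; group,
          map_mul, map_mul, ihj, ← map_mul, ← map_mul,
          show y * (u0 * c ^ j) * y⁻¹ = y * u0 * y⁻¹ * (y * c * y⁻¹) ^ j by rw [conj_pow]; group,
          map_mul, map_pow, hcy, ← map_pow, hu0c, ← map_mul, mul_assoc, ← pow_succ']
    have h1 := hiter p
    rw [hyp, one_mul, inv_one, mul_one, map_mul, map_pow] at h1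
    have hcp : ρ c ^ p = 1 := by
      have h2 := congrArg (ρ u0⁻¹ * ·) h1
      simp only [← mul_assoc, ← map_mul, inv_mul_cancel, map_one, one_mul] at h2
      exact h2.symm
    obtain ⟨e, he⟩ := hQ ⟨c, hle hcmem⟩
    have hce : ρ c ^ q ^ e = 1 := by
      rw [← map_pow, show c ^ q ^ e = 1 from congrArg Subtype.val he, map_one]
    have hcop : Nat.gcd p (q ^ e) = 1 := Nat.Coprime.pow_right e ((Nat.coprime_primes hp hq).mpr hqp.symm)
    have hone : ρ c = 1 := by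
      have := pow_gcd_eq_one.mpr ⟨hcp, hce⟩
      rwa [hcop, pow_one] at this
    rw [hu0c, map_mul, hone, mul_one]
  -- commutators are central
  have hfixcomm : ∀ c ∈ ⁅Q, Q⁆, ρ (y * c * y⁻¹) = ρ c := by
    haveI : Nontrivial Q := Q.nontrivial_iff_ne_bot.mpr fun h => hu0ne (by
      rw [h, Subgroup.mem_bot] at hu0; rw [hu0, mul_one, mul_inv_cancel])
    haveI : Group.IsNilpotent Q := hQ.isNilpotent
    have hlt : ⁅Q, Q⁆ < Q := by
      have h1 : (commutator Q).map Q.subtype = ⁅Q, Q⁆ := by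
        rw [commutator_def, Subgroup.map_commutator, ← MonoidHom.range_eq_map, Subgroup.range_subtype]
      rw [← h1]
      have h2 := Subgroup.map_lt_map_iff_of_injective (Q.subtype_injective) |>.mpr
        (Group.IsSolvable.commutator_lt_top_of_nontrivial Q)
      rwa [← MonoidHom.range_eq_map, Subgroup.range_subtype] at h2
    refine hsmall _ hlt ?_
    rw [Subgroup.mem_normalizer_iff]
    intro h
    have hmap : Q.map (MulAut.conj x).toMonoidHom = Q := by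
      ext g
      rw [Subgroup.mem_map_equiv]
      have := Subgroup.mem_normalizer_iff.mp hxQ ((MulAut.conj x).symm g)
      rw [this]
      simp [mul_assoc]
    have hmap2 : (⁅Q, Q⁆).map (MulAut.conj x).toMonoidHom = ⁅Q, Q⁆ := by rw [Subgroup.map_commutator, hmap]
    conv_rhs => rw [← hmap2, Subgroup.mem_map_equiv]
    simp [mul_assoc]
  have hcentral : ∀ v ∈ Q, ∀ w ∈ Q, ∀ t ∈ Q,
      ρ t * ρ (v * w * v⁻¹ * w⁻¹) = ρ (v * w * v⁻¹ * w⁻¹) * ρ t := by
    intro v hv w hw t ht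
    have hc0 : v * w * v⁻¹ * w⁻¹ ∈ ⁅Q, Q⁆ := by
      rw [← commutatorElement_def]; exact Subgroup.commutator_mem_commutator hv hw
    generalize v * w * v⁻¹ * w⁻¹ = c at hc0 ⊢
    rw [← hgen] at ht
    induction ht using Subgroup.closure_induction with
    | mem z hz =>
      obtain ⟨t, ht, rfl⟩ := hz
      have h1 := hfixcomm (t * c * t⁻¹) ((Subgroup.mem_normalizer_iff.mp
        (le_normalizer_commutator Q ht) c).mp hc0)
      have h2 : ρ (cy t) * ρ c * ρ (cy t)⁻¹ = ρ c := by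
        have h3 : ρ (y * t * y⁻¹ * c * (y * t * y⁻¹)⁻¹) = ρ (t * c * t⁻¹) := by
          rw [← h1, show y * (t * c * t⁻¹) * y⁻¹ = y * t * y⁻¹ * (y * c * y⁻¹) * (y * t * y⁻¹)⁻¹ by group,
            map_mul ρ _ ((y * t * y⁻¹)⁻¹), map_mul ρ _ ((y * t * y⁻¹)⁻¹), map_mul ρ (y * t * y⁻¹) c,
            map_mul ρ (y * t * y⁻¹) (y * c * y⁻¹), hfixcomm c hc0]
        calc ρ (cy t) * ρ c * ρ (cy t)⁻¹ = ρ t⁻¹ * ρ (y * t * y⁻¹ * c * (y * t * y⁻¹)⁻¹) * ρ t := by
              simp only [cy, ← map_mul]; congr 1; group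
          _ = ρ t⁻¹ * ρ (t * c * t⁻¹) * ρ t := by rw [h3]
          _ = ρ c := by simp only [← map_mul]; congr 1; group
      calc ρ (cy t) * ρ c = ρ (cy t) * ρ c * ρ (cy t)⁻¹ * ρ (cy t) := by
            rw [mul_assoc (ρ (cy t) * ρ c), ← map_mul _ _ (cy t), inv_mul_cancel, map_one, mul_one]
        _ = ρ c * ρ (cy t) := by rw [h2]
    | one => rw [map_one, one_mul, mul_one]
    | mul a b _ _ iha ihb => rw [map_mul, mul_assoc, ihb, ← mul_assoc, iha, mul_assoc]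
    | inv a _ iha =>
      calc ρ a⁻¹ * ρ c = ρ a⁻¹ * ρ c * (ρ a * ρ a⁻¹) := by rw [← map_mul ρ a, mul_inv_cancel, map_one, mul_one]
        _ = ρ a⁻¹ * (ρ c * ρ a) * ρ a⁻¹ := by simp only [mul_assoc]
        _ = ρ c * ρ a⁻¹ := by
          rw [← iha, ← mul_assoc (ρ a⁻¹), ← map_mul ρ a⁻¹ a, inv_mul_cancel, map_one, one_mul]
  -- `x` fixes no nonidentity element of the image
  have hρfix : ∀ v ∈ Q, ρ (x * v * x⁻¹) = ρ v → ρ v = 1 := by
    intro v hv hfix
    let K0 : Subgroup Q := (ρ.comp Q.subtype).ker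
    have hmem : ∀ k : Q, k ∈ K0 → (⟨(k : G)⁻¹ * (x * (k : G) * x⁻¹),
        Q.mul_mem (Q.inv_mem k.2) ((Subgroup.mem_normalizer_iff.mp hxQ _).mp k.2)⟩ : Q) ∈ K0 := by
      intro k hk
      change ρ (k : G) = 1 at hk
      show ρ ((k : G)⁻¹ * (x * (k : G) * x⁻¹)) = 1
      rw [map_mul, map_mul, map_mul, hk, mul_one, ← map_mul ρ x, mul_inv_cancel, map_one, mul_one]
      have h1 : ρ (k : G)⁻¹ * ρ (k : G) = 1 := by rw [← map_mul, inv_mul_cancel, map_one]
      rwa [hk, mul_one] at h1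
    let f : K0 → K0 := fun k => ⟨_, hmem k.1 k.2⟩
    have key : ∀ a b : G, a ∈ Q → b ∈ Q → a⁻¹ * (x * a * x⁻¹) = b⁻¹ * (x * b * x⁻¹) → a = b := by
      intro a b ha hb h
      have h1 : x * (b * a⁻¹) * x⁻¹ = b * a⁻¹ := by
        calc x * (b * a⁻¹) * x⁻¹ = b * (b⁻¹ * (x * b * x⁻¹)) * (a⁻¹ * (x * a * x⁻¹))⁻¹ * a⁻¹ := by group
          _ = b * a⁻¹ := by rw [← h]; group
      exact (mul_inv_eq_one.mp (hfpf _ (Q.mul_mem hb (Q.inv_mem ha)) h1)).symm
    have hf : Function.Injective f := fun a b h => Subtype.ext (Subtype.ext (key _ _ a.1.2 b.1.2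
      (congrArg (fun z : K0 => ((z : Q) : G)) h)))
    have hvK : (⟨v⁻¹ * (x * v * x⁻¹), Q.mul_mem (Q.inv_mem hv) ((Subgroup.mem_normalizer_iff.mp hxQ _).mp hv)⟩ : Q)
        ∈ K0 := by
      show ρ (v⁻¹ * (x * v * x⁻¹)) = 1
      rw [map_mul, hfix, ← map_mul, inv_mul_cancel, map_one]
    obtain ⟨k, hk⟩ := (Finite.injective_iff_surjective.mp hf) ⟨_, hvK⟩
    rw [← key _ _ k.1.2 hv (congrArg (fun z : K0 => ((z : Q) : G)) hk)]
    exact k.2
  -- the components
  obtain ⟨k, W, hk, hkN, hW, hWfix, hbij⟩ := clifford hxQ (Nat.pow_pos hp.pos) (hxN ▸ Q.one_mem) hirr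
  obtain ⟨a, han, rfl⟩ := (Nat.dvd_prime_pow hp).mp hkN
  haveI := nontrivial_simpleSub hW
  obtain ⟨w0, hw0⟩ := exists_ne (0 : W)
  rcases Nat.eq_or_lt_of_le han with he | hlt'
  · subst he
    apply hw0
    have h1 : translateSum ρ x (p ^ a) W (fun _ => w0) = translateSum ρ x (p ^ a) W 0 := by
      rw [map_zero, translateSum_apply, Fin.sum_univ_eq_sum_range (fun i => ρ (x ^ i) (w0 : V))]
      have h := LinearMap.congr_fun hsum (w0 : V)
      rw [LinearMap.sum_apply] at h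
      exact h
    exact congrFun (hbij.1 h1) ⟨0, hk⟩
  obtain ⟨m, hm, hnm⟩ : ∃ m, 1 ≤ m ∧ n = m + a := ⟨n - a, by omega, by omega⟩
  set z := x ^ p ^ a with hz
  set H := stab ρ W
  have hQH : Q ≤ H := inv_iff_le_stab.mp hW.2.1
  have hzH : z ∈ H := hWfix
  have hInv : Inv ρ H W := fun m hm v hv => apply_mem_of_mem_stab hm hv
  set ρW := restr ρ H W hInv with hρW
  set QW := Q.subgroupOf H with hQW
  haveI : Finite QW := Finite.of_equiv Q (Subgroup.subgroupOfEquivOfLe hQH).toEquiv.symm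
  have hirrW : Irred ρW QW := by
    intro U hU
    rcases hW.2.2 (U.map W.subtype) (Submodule.map_subtype_le W U) (by
      rintro g hg _ ⟨w, hw, rfl⟩
      exact ⟨_, hU ⟨g, hQH hg⟩ hg w hw, rfl⟩) with h | h
    · left
      refine Submodule.map_injective_of_injective W.injective_subtype ?_
      rw [h, Submodule.map_bot]
    · right
      refine Submodule.map_injective_of_injective W.injective_subtype ?_
      rw [h, Submodule.map_subtype_top]
  have hzy : z ^ p ^ (m - 1) = y := by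
    rw [hz, ← pow_mul, ← pow_add, hy]; congr 2; omega
  have hzN : z ^ p ^ m = 1 := by
    rw [hz, ← pow_mul, ← pow_add, show a + m = n by omega, hxN]
  have hyH : y ∈ H := hzy ▸ H.pow_mem hzH _
  have hyH' : (⟨z, hzH⟩ : H) ^ p ^ (m - 1) = ⟨y, hyH⟩ := Subtype.ext hzy
  have hzQ : (⟨z, hzH⟩ : H) ∈ Subgroup.normalizer (QW : Set H) := by
    rw [Subgroup.mem_normalizer_iff]
    exact fun h => Subgroup.mem_normalizer_iff.mp (Subgroup.pow_mem _ hxQ _) (h : G)
  have hsumW : ∑ i ∈ Finset.range (p ^ m), ρW ((⟨z, hzH⟩ : H) ^ i) = 0 := by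
    refine LinearMap.ext fun w => Subtype.ext ?_
    rw [LinearMap.sum_apply, Submodule.coe_sum, LinearMap.zero_apply, Submodule.coe_zero]
    simp only [hρW, restr_coe, SubmonoidClass.coe_pow]
    have hmemW : ∀ i : ℕ, ρ (z ^ i) (w : V) ∈ W := fun i => apply_mem_of_mem_stab (H.pow_mem hzH i) w.2
    have h1 : translateSum ρ x (p ^ a) W
        (fun _ => ⟨∑ i ∈ Finset.range (p ^ m), ρ (z ^ i) (w : V), Submodule.sum_mem _ fun i _ => hmemW i⟩) =
        translateSum ρ x (p ^ a) W 0 := by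
      rw [map_zero, translateSum_apply]
      simp only [map_sum, ← rho_mul, hz, ← pow_mul, ← pow_add]
      rw [Finset.sum_comm]
      have h := LinearMap.congr_fun hsum (w : V)
      rw [LinearMap.sum_apply, LinearMap.zero_apply] at h
      rw [← h, show n = m + a from hnm, pow_add]
      rw [← Fin.sum_univ_eq_sum_range (fun i => ∑ r : Fin (p ^ a), ρ (x ^ ((r : ℕ) + p ^ a * i)) (w : V)),
        ← Fin.sum_univ_eq_sum_range (fun i => ρ (x ^ i) (w : V)), ← finProdFinEquiv.sum_comp, Fintype.sum_prod_type]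
      rfl
    exact congrArg Subtype.val (congrFun (hbij.1 h1) ⟨0, hk⟩)
  have hneW : ∃ u ∈ QW, ρW ((⟨z, hzH⟩ : H) ^ p ^ (m - 1) * u * ((⟨z, hzH⟩ : H) ^ p ^ (m - 1))⁻¹) ≠ ρW u := by
    by_contra hall
    push Not at hall
    apply hu0ne
    refine LinearMap.ext fun v => ?_
    obtain ⟨d, rfl⟩ := hbij.2 v
    rw [translateSum_apply, map_sum, map_sum]
    refine Finset.sum_congr rfl fun i _ => ?_
    set g := x ^ (i : ℕ) with hg
    have hgy : Commute g y := hxy.pow_left _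
    have hu' : g⁻¹ * u0 * g ∈ Q := by
      have := (Subgroup.mem_normalizer_iff.mp (Subgroup.inv_mem _ (Subgroup.pow_mem _ hxQ (i : ℕ))) u0).mp hu0
      rwa [inv_inv] at this
    have h1 := congrArg Subtype.val (LinearMap.congr_fun (hall ⟨_, hQH hu'⟩ hu') (d i))
    rw [hρW, restr_coe, restr_coe] at h1
    simp only [Subgroup.coe_mul, InvMemClass.coe_inv, SubmonoidClass.coe_pow, hzy] at h1
    have h2 := congrArg (ρ g) h1
    rw [← rho_mul, ← rho_mul] at h2
    rw [← rho_mul, ← rho_mul]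
    have e1 : g * (y * (g⁻¹ * u0 * g) * y⁻¹) = y * u0 * y⁻¹ * g := by
      calc g * (y * (g⁻¹ * u0 * g) * y⁻¹) = (g * y * g⁻¹) * u0 * (g * y⁻¹) := by group
        _ = y * u0 * (y⁻¹ * g) := by rw [hgy.eq, mul_inv_cancel_right, (hgy.inv_right).eq]
        _ = _ := (mul_assoc _ _ _).symm
    rw [e1, show g * (g⁻¹ * u0 * g) = u0 * g by group] at h2
    exact h2
  have hgenW : Subgroup.closure ((fun v => v⁻¹ * ((⟨z, hzH⟩ : H) ^ p ^ (m - 1) * v *
      ((⟨z, hzH⟩ : H) ^ p ^ (m - 1))⁻¹)) '' (QW : Set H)) = QW := by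
    refine Subgroup.map_injective H.subtype_injective ?_
    rw [MonoidHom.map_closure, hQW, Subgroup.map_subgroupOf_eq_of_le hQH]
    refine Eq.trans ?_ hgen
    congr 1
    ext g
    constructor
    · rintro ⟨_, ⟨v, hv, rfl⟩, rfl⟩
      refine ⟨(v : G), hv, ?_⟩
      simp [cy, hyH']
    · rintro ⟨v, hv, rfl⟩
      refine ⟨_, ⟨⟨v, hQH hv⟩, hv, rfl⟩, ?_⟩
      simp [cy, hyH']
  have hcommW : ∀ v ∈ QW, ∀ w ∈ QW, IsScalar ρW (v * w * v⁻¹ * w⁻¹) := by
    intro v hv w hw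
    refine schur hirrW _ fun t ht => LinearMap.ext fun e => Subtype.ext ?_
    exact LinearMap.congr_fun (hcentral _ hv _ hw _ ht) (e : V)
  obtain ⟨hclass, j, hj1, hjm, hindex⟩ := prim hp2 hqp hpK hqK ρW QW (hQ.of_equiv (Subgroup.subgroupOfEquivOfLe hQH).symm)
    hirrW ⟨z, hzH⟩ (n := m) (by omega) hzQ (Subtype.ext hzN) hsumW hneW hgenW hcommW
  -- scalars on `W`, inside `Q`
  let QtoW : Q ≃* QW := (Subgroup.subgroupOfEquivOfLe hQH).symm
  let Sc : G → Prop := fun g => ∃ s : K, ∀ w ∈ W, ρ g w = s • w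
  have hScW : ∀ v : H, IsScalar ρW v ↔ Sc (v : G) := fun v =>
    ⟨fun ⟨s, hs⟩ => ⟨s, fun w hw => congrArg Subtype.val (LinearMap.congr_fun hs ⟨w, hw⟩)⟩,
      fun ⟨s, hs⟩ => ⟨s, LinearMap.ext fun w => Subtype.ext (hs w w.2)⟩⟩
  let MW : Subgroup QW :=
    { carrier := {v | IsScalar ρW (v : H)}
      one_mem' := ⟨1, by rw [Subgroup.coe_one, map_one, one_smul]⟩
      mul_mem' := by
        rintro a b ⟨s, hs⟩ ⟨t, ht⟩
        exact ⟨s * t, by rw [Subgroup.coe_mul, map_mul, hs, ht, smul_mul_assoc, one_mul, smul_smul]⟩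
      inv_mem' := by
        rintro a ⟨s, hs⟩
        refine ⟨s⁻¹, ?_⟩
        have h1 : ρW (a : H)⁻¹ * ρW (a : H) = 1 := by rw [← map_mul, inv_mul_cancel, map_one]
        rw [hs, mul_smul_comm, mul_one] at h1
        have hs0 : s ≠ 0 := fun h => one_ne_zero (α := Module.End K W) (by rw [← h1, h, zero_smul])
        rw [InvMemClass.coe_inv, ← h1, inv_smul_smul₀ hs0] }
  let M1 : Subgroup Q := MW.comap QtoW.toMonoidHom
  have hM1 : ∀ v : Q, v ∈ M1 ↔ Sc (v : G) := fun v => hScW _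
  have hM1index : M1.index = (q ^ j) ^ 2 := by
    rw [show M1.index = MW.index from Subgroup.index_comap_of_surjective _ QtoW.surjective]
    exact hindex MW fun v => Iff.rfl
  -- the translates
  let ψ : ℕ → MulAut Q := fun i => Q.normalizerMonoidHom ⟨x ^ i, Subgroup.pow_mem _ hxQ i⟩
  let Mi : Fin (p ^ a) → Subgroup Q := fun r => M1.comap (ψ r).toMonoidHom
  have hMi : ∀ r v, v ∈ Mi r ↔ Sc (x ^ (r : ℕ) * (v : G) * (x ^ (r : ℕ))⁻¹) := fun r v => hM1 _
  have hMiindex : ∀ r, (Mi r).index = (q ^ j) ^ 2 := fun r => by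
    rw [show (Mi r).index = M1.index from Subgroup.index_comap_of_surjective _ (ψ r).surjective, hM1index]
  have hshift : ∀ (t : ℕ) (g : G), Sc g → Sc (z ^ t * g * (z ^ t)⁻¹) := by
    intro t g ⟨s, hs⟩
    refine ⟨s, fun w hw => ?_⟩
    have hw' : ρ (z ^ t)⁻¹ w ∈ W := apply_mem_of_mem_stab (H.inv_mem (H.pow_mem hzH t)) hw
    rw [rho_mul, rho_mul, hs _ hw', map_smul, rho_apply_inv]
  have hsplit : ∀ i : ℕ, x ^ i = z ^ (i / p ^ a) * x ^ (i % p ^ a) := fun i => by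
    rw [hz, ← pow_mul, ← pow_add, Nat.div_add_mod]
  let M0 : Subgroup Q := ⨅ r, Mi r
  have hM0 : ∀ (v : Q), v ∈ M0 → ∀ i : ℕ, Sc (x ^ i * (v : G) * (x ^ i)⁻¹) := by
    intro v hv i
    have h1 := hshift (i / p ^ a) _ ((hMi ⟨i % p ^ a, Nat.mod_lt _ hk⟩ v).mp (Subgroup.mem_iInf.mp hv _))
    convert h1 using 1
    rw [hsplit i]; group
  have hM0conj : ∀ (v : Q) (i : ℕ), ψ i v ∈ M0 ↔ v ∈ M0 := by
    have h1 : ∀ (v : Q) (i : ℕ), v ∈ M0 → ψ i v ∈ M0 := fun v i hv => Subgroup.mem_iInf.mpr fun r => by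
      rw [hMi]
      convert hM0 v hv ((r : ℕ) + i) using 1
      show x ^ (r : ℕ) * (x ^ i * (v : G) * (x ^ i)⁻¹) * (x ^ (r : ℕ))⁻¹ = _
      rw [pow_add]; group
    intro v i
    refine ⟨fun h => ?_, h1 v i⟩
    have h2 := h1 _ ((p ^ n - 1) * i) h
    convert h2 using 1
    refine Subtype.ext ?_
    show (v : G) = x ^ ((p ^ n - 1) * i) * (x ^ i * (v : G) * (x ^ i)⁻¹) * (x ^ ((p ^ n - 1) * i))⁻¹
    have h3 : x ^ ((p ^ n - 1) * i) * x ^ i = 1 := by
      rw [← pow_add, ← add_one_mul, Nat.sub_add_cancel (Nat.one_le_pow n p hp.pos), pow_mul, hxN, one_pow]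
    calc (v : G) = x ^ ((p ^ n - 1) * i) * x ^ i * (v : G) * (x ^ ((p ^ n - 1) * i) * x ^ i)⁻¹ := by
          rw [h3]; group
      _ = _ := by group
  have hclass' : ∀ g ∈ Q, Sc (g⁻¹ * (y * g * y⁻¹)) → Sc g := by
    intro g hg h
    refine (hScW ⟨g, hQH hg⟩).mp (hclass ⟨g, hQH hg⟩ hg ((hScW _).mpr ?_))
    simpa [hzy] using h
  haveI hM0n : M0.Normal := by
    refine ⟨fun v hv g => Subgroup.mem_iInf.mpr fun r => ?_⟩
    rw [hMi]
    obtain ⟨s, hs⟩ := (hMi r v).mp (Subgroup.mem_iInf.mp hv r)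
    refine ⟨s, fun w hw => ?_⟩
    have hg' : x ^ (r : ℕ) * (g : G) * (x ^ (r : ℕ))⁻¹ ∈ H := hQH (hxc _ _ g.2)
    have hw' : ρ (x ^ (r : ℕ) * (g : G) * (x ^ (r : ℕ))⁻¹)⁻¹ w ∈ W := apply_mem_of_mem_stab (H.inv_mem hg') hw
    rw [show x ^ (r : ℕ) * ((g * v * g⁻¹ : Q) : G) * (x ^ (r : ℕ))⁻¹ =
      x ^ (r : ℕ) * (g : G) * (x ^ (r : ℕ))⁻¹ * (x ^ (r : ℕ) * (v : G) * (x ^ (r : ℕ))⁻¹) *
        (x ^ (r : ℕ) * (g : G) * (x ^ (r : ℕ))⁻¹)⁻¹ by
      rw [Subgroup.coe_mul, Subgroup.coe_mul, InvMemClass.coe_inv]; group]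
    rw [rho_mul, rho_mul, hs _ hw', map_smul, rho_apply_inv]
  -- regular orbits on `Q ⧸ M0`
  haveI : Fintype (Q ⧸ M0) := Fintype.ofFinite _
  let σ : Equiv.Perm (Q ⧸ M0) := (QuotientGroup.congr M0 M0 (ψ 1) (by
    ext v
    constructor
    · rintro ⟨u, hu, rfl⟩
      exact (hM0conj u 1).mpr hu
    · intro hv
      exact ⟨(ψ 1).symm v, (hM0conj _ 1).mp (by rwa [MulEquiv.apply_symm_apply]),
        MulEquiv.apply_symm_apply _ v⟩)).toEquiv
  have hσi : ∀ (i : ℕ) (v : Q), (σ ^ i) (v : Q ⧸ M0) = ((ψ i v : Q) : Q ⧸ M0) := by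
    intro i
    induction i with
    | zero =>
      intro v
      rw [pow_zero, Equiv.Perm.one_apply]
      congr 1
      exact Subtype.ext (by show (v : G) = x ^ 0 * (v : G) * (x ^ 0)⁻¹; simp)
    | succ i ih =>
      intro v
      rw [pow_succ', Equiv.Perm.mul_apply, ih]
      show ((ψ 1 (ψ i v) : Q) : Q ⧸ M0) = _
      congr 1
      refine Subtype.ext ?_
      show x ^ 1 * (x ^ i * (v : G) * (x ^ i)⁻¹) * (x ^ 1)⁻¹ = x ^ (i + 1) * (v : G) * (x ^ (i + 1))⁻¹
      rw [pow_one, pow_succ']; group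
  have hσN : σ ^ p ^ n = 1 := Equiv.ext fun c => QuotientGroup.induction_on c fun v => by
    rw [hσi]
    show _ = (v : Q ⧸ M0)
    congr 1
    exact Subtype.ext (by show x ^ p ^ n * (v : G) * (x ^ p ^ n)⁻¹ = v; simp [hxN])
  have hx₀ : σ ((1 : Q) : Q ⧸ M0) = ((1 : Q) : Q ⧸ M0) := by
    show ((ψ 1 1 : Q) : Q ⧸ M0) = _
    rw [map_one]
  have hfree : ∀ (i : ℕ) (c : Q ⧸ M0), 0 < i → i < p ^ n → (σ ^ i) c = c → c = ((1 : Q) : Q ⧸ M0) := by
    intro i c hi hin hfix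
    obtain ⟨b, hbn, hb⟩ := (Nat.dvd_prime_pow hp).mp (Nat.gcd_dvd_right i (p ^ n))
    have hbn' : b ≤ n - 1 := by
      by_contra hlt
      have : b = n := by omega
      subst this
      have := Nat.le_of_dvd hi (hb ▸ Nat.gcd_dvd_left i (p ^ b))
      omega
    have h1 : Function.IsPeriodicPt σ (p ^ n) c := by
      show (⇑σ)^[p ^ n] c = c
      rw [← Equiv.Perm.coe_pow, hσN]; rfl
    have h2 : Function.IsPeriodicPt σ i c := by
      show (⇑σ)^[i] c = c
      rw [← Equiv.Perm.coe_pow]; exact hfix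
    have h3 := (h2.gcd h1).mul_const (p ^ (n - 1 - b))
    rw [hb, ← pow_add, Nat.add_sub_cancel' hbn'] at h3
    have h4 : (σ ^ p ^ (n - 1)) c = c := by rw [Equiv.Perm.coe_pow]; exact h3
    obtain ⟨v, rfl⟩ := QuotientGroup.mk_surjective c
    rw [hσi, QuotientGroup.eq] at h4
    refine QuotientGroup.eq.mpr ?_
    rw [mul_one]
    refine inv_mem (Subgroup.mem_iInf.mpr fun r => (hMi r v).mpr (hclass' _ (hxc _ _ v.2) ?_))
    have h5 := (hMi r _).mp (Subgroup.mem_iInf.mp (M0.inv_mem h4) r)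
    convert h5 using 1
    have hc : Commute (x ^ (r : ℕ)) y := hxy.pow_left _
    rw [Subgroup.coe_inv, Subgroup.coe_mul, InvMemClass.coe_inv,
      show ((ψ (p ^ (n - 1)) v : Q) : G) = y * (v : G) * y⁻¹ from rfl]
    calc (x ^ (r : ℕ) * (v : G) * (x ^ (r : ℕ))⁻¹)⁻¹ * (y * (x ^ (r : ℕ) * (v : G) * (x ^ (r : ℕ))⁻¹) * y⁻¹)
        = x ^ (r : ℕ) * (v : G)⁻¹ * (x ^ (r : ℕ))⁻¹ * ((y * x ^ (r : ℕ)) * (v : G) * ((x ^ (r : ℕ))⁻¹ * y⁻¹)) := by group
      _ = x ^ (r : ℕ) * (v : G)⁻¹ * (x ^ (r : ℕ))⁻¹ * ((x ^ (r : ℕ) * y) * (v : G) * (y⁻¹ * (x ^ (r : ℕ))⁻¹)) := by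
          rw [hc.symm.eq, show (x ^ (r : ℕ))⁻¹ * y⁻¹ = y⁻¹ * (x ^ (r : ℕ))⁻¹ by
            rw [← mul_inv_rev, ← mul_inv_rev, hc.symm.eq]]
      _ = _ := by group
  have hdvd := dvd_card_sub_one σ (Nat.pow_pos hp.pos) hσN _ hx₀ hfree
  rw [← Nat.card_eq_fintype_card, ← Subgroup.index_eq_card] at hdvd
  obtain ⟨e, he⟩ := hQ.index M0
  rw [he] at hdvd
  have he1 : 1 ≤ e := by
    by_contra h
    obtain rfl : e = 0 := by omega
    rw [pow_zero] at he
    have h1 : (Mi ⟨0, hk⟩).index ∣ M0.index := Subgroup.index_dvd_of_le (iInf_le _ _)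
    rw [he, hMiindex, Nat.dvd_one] at h1
    have h2 : 2 ≤ (q ^ j) ^ 2 := hq.two_le.trans ((Nat.le_self_pow (by omega) q).trans (Nat.le_self_pow two_ne_zero _))
    omega
  have hbig := pow_le_of_dvd hp hp2 hq hm hnm hj1 hjm he1 hdvd
  -- an element scalar on all components but one
  obtain ⟨v, hv, hv0⟩ : ∃ v : Q, (∀ r : Fin (p ^ a), (r : ℕ) ≠ 0 → v ∈ Mi r) ∧ v ∉ M0 := by
    by_contra hall
    push Not at hall
    let ι := {r : Fin (p ^ a) // r ≠ ⟨0, hk⟩}
    have h1 : (⨅ r : ι, Mi r) = M0 := le_antisymm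
      (fun v hv => hall v fun r hr => Subgroup.mem_iInf.mp hv ⟨r, fun h => hr (congrArg Fin.val h)⟩)
      (le_iInf fun r => iInf_le _ _)
    have h2 := Subgroup.index_iInf_le (fun r : ι => Mi r)
    rw [h1, he, Finset.prod_congr rfl (fun (r : ι) _ => hMiindex r.1), Finset.prod_const, Finset.card_univ,
      Fintype.card_subtype_compl, Fintype.card_subtype_eq, Fintype.card_fin, ← pow_mul] at h2
    have h3 : (q ^ j) ^ (2 * (p ^ a - 1)) < (q ^ j) ^ (2 * p ^ a) :=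
      Nat.pow_lt_pow_right (Nat.one_lt_pow (by omega) hq.one_lt) (by omega)
    omega
  have hvW : ¬ Sc (v : G) := fun h => hv0 (Subgroup.mem_iInf.mpr fun r => by
    by_cases hr : (r : ℕ) = 0
    · rw [hMi, hr, pow_zero, one_mul, inv_one, mul_one]; exact h
    · exact hv r hr)
  obtain ⟨u, hu, huv⟩ : ∃ u ∈ Q, ∃ w ∈ W, ρ (u * (v : G) * u⁻¹ * (v : G)⁻¹) w ≠ w := by
    by_contra hall
    push Not at hall
    apply hvW
    obtain ⟨s, hs⟩ := schur hirrW (ρW ⟨v, hQH v.2⟩) fun t ht => LinearMap.ext fun w => Subtype.ext (by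
      show ρ (t : G) (ρ (v : G) w) = ρ (v : G) (ρ (t : G) w)
      rw [← rho_mul, ← rho_mul,
        show (t : G) * v = (t : G) * v * (t : G)⁻¹ * (v : G)⁻¹ * (v * t) by group, rho_mul,
        hall (t : G) (show (t : G) ∈ Q from ht) _ (apply_mem_of_mem_stab (H.mul_mem (hQH v.2) t.2) w.2)])
    exact ⟨s, fun w hw => congrArg Subtype.val (LinearMap.congr_fun hs ⟨w, hw⟩)⟩
  set c := u * (v : G) * u⁻¹ * (v : G)⁻¹ with hc
  have hcQ : c ∈ Q := Q.mul_mem (Q.mul_mem (Q.mul_mem hu v.2) (Q.inv_mem hu)) (Q.inv_mem v.2)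
  have hci : ∀ i : ℕ, x ^ i * c * (x ^ i)⁻¹ = (x ^ i * u * (x ^ i)⁻¹) * (x ^ i * (v : G) * (x ^ i)⁻¹) *
      (x ^ i * u * (x ^ i)⁻¹)⁻¹ * (x ^ i * (v : G) * (x ^ i)⁻¹)⁻¹ := fun i => by rw [hc]; group
  obtain ⟨s, hs⟩ : Sc c := (hScW ⟨c, hQH hcQ⟩).mp (hcommW ⟨u, hQH hu⟩ hu ⟨v, hQH v.2⟩ v.2)
  -- the product of the translates of `c`
  let Pr : ℕ → G := fun t => Nat.rec 1 (fun i acc => acc * (x ^ i * c * (x ^ i)⁻¹)) t
  have hPrsucc : ∀ t, Pr (t + 1) = Pr t * (x ^ t * c * (x ^ t)⁻¹) := fun t => rfl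
  have hPrQ : ∀ t, Pr t ∈ Q := by
    intro t
    induction t with
    | zero => exact Q.one_mem
    | succ t iht => exact Q.mul_mem iht (hxc t c hcQ)
  have hgcomm : ∀ i, ∀ g ∈ Q, ρ g * ρ (x ^ i * c * (x ^ i)⁻¹) = ρ (x ^ i * c * (x ^ i)⁻¹) * ρ g := by
    intro i g hg
    rw [hci]
    exact hcentral _ (hxc i u hu) _ (hxc i _ v.2) g hg
  have hPrx : ∀ t, ρ (c * (x * Pr t * x⁻¹)) = ρ (Pr (t + 1)) := by
    intro t
    induction t with
    | zero => congr 1; show c * (x * 1 * x⁻¹) = 1 * (x ^ 0 * c * (x ^ 0)⁻¹); simp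
    | succ t iht =>
      rw [hPrsucc (t + 1), map_mul ρ (Pr (t + 1)), ← iht, ← map_mul, hPrsucc t]
      congr 1
      rw [pow_succ']; group
  have hfix : ρ (x * Pr (p ^ n) * x⁻¹) = ρ (Pr (p ^ n)) := by
    have h1 := hPrx (p ^ n)
    rw [hPrsucc, hxN, one_mul, inv_one, mul_one, map_mul ρ c, map_mul ρ (Pr (p ^ n))] at h1
    have h2 := hgcomm 0 (Pr (p ^ n)) (hPrQ _)
    rw [pow_zero, one_mul, inv_one, mul_one] at h2
    rw [h2] at h1
    have h3 := congrArg (ρ c⁻¹ * ·) h1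
    simp only [← mul_assoc, ← map_mul ρ c⁻¹ c, inv_mul_cancel, map_one, one_mul] at h3
    exact h3
  have hone := hρfix _ (hPrQ _) hfix
  have hact : ∀ i : ℕ, ∀ w ∈ W, ρ (x ^ i * c * (x ^ i)⁻¹) w = (if i % p ^ a = 0 then s else 1) • w := by
    intro i w hw
    split
    · next h =>
      have h' : x ^ i = z ^ (i / p ^ a) := by rw [hsplit, h, pow_zero, mul_one]
      have hw' : ρ (z ^ (i / p ^ a))⁻¹ w ∈ W := apply_mem_of_mem_stab (H.inv_mem (H.pow_mem hzH _)) hw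
      rw [h', rho_mul, rho_mul, hs _ hw', map_smul, rho_apply_inv]
    · next h =>
      rw [one_smul, hci]
      set g := x ^ i * u * (x ^ i)⁻¹
      obtain ⟨t, ht⟩ : Sc (x ^ i * (v : G) * (x ^ i)⁻¹) := by
        have h1 := hshift (i / p ^ a) _ ((hMi ⟨i % p ^ a, Nat.mod_lt _ hk⟩ v).mp (hv _ h))
        convert h1 using 1
        rw [hsplit i]; group
      set g' := x ^ i * (v : G) * (x ^ i)⁻¹
      have hg : g ∈ H := hQH (hxc i u hu)
      have hg' : g' ∈ H := hQH (hxc i _ v.2)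
      have ha : ρ g'⁻¹ w ∈ W := apply_mem_of_mem_stab (H.inv_mem hg') hw
      have hb : ρ g⁻¹ (ρ g'⁻¹ w) ∈ W := apply_mem_of_mem_stab (H.inv_mem hg) ha
      rw [rho_mul, rho_mul, rho_mul, ht _ hb, map_smul, rho_apply_inv, ← ht _ ha, rho_apply_inv]
  have hPract : ∀ t : ℕ, ∀ w ∈ W, ρ (Pr t) w = (∏ i ∈ Finset.range t, (if i % p ^ a = 0 then s else 1)) • w := by
    intro t
    induction t with
    | zero => intro w _; show ρ 1 w = _; rw [map_one, Module.End.one_apply, Finset.range_zero, Finset.prod_empty, one_smul]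
    | succ t iht =>
      intro w hw
      rw [hPrsucc, rho_mul, hact t w hw, map_smul, iht w hw, Finset.prod_range_succ, smul_smul, mul_comm]
  have hprod : (∏ i ∈ Finset.range (p ^ n), (if i % p ^ a = 0 then s else 1)) = s ^ p ^ m := by
    rw [hnm, pow_add, ← Fin.prod_univ_eq_prod_range (fun i => if i % p ^ a = 0 then s else 1),
      ← finProdFinEquiv.prod_comp, Fintype.prod_prod_type]
    rw [Finset.prod_congr rfl (g := fun _ => s) fun e _ => ?_, Finset.prod_const, Finset.card_univ, Fintype.card_fin]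
    rw [Finset.prod_eq_single ⟨0, hk⟩]
    · simp [finProdFinEquiv, Nat.mul_mod_right]
    · intro r _ hr
      have hr0 : (r : ℕ) ≠ 0 := fun h => hr (Fin.ext h)
      simp [finProdFinEquiv, Nat.add_mul_mod_self_left, Nat.mod_eq_of_lt r.2, hr0]
    · simp
  obtain ⟨w1, hw1, hw1ne⟩ := huv
  apply hw1ne
  have hw10 : w1 ≠ 0 := fun h => hw1ne (by rw [h, map_zero])
  have hsp : s ^ p ^ m = 1 := by
    have h1 := hPract (p ^ n) w1 hw1
    rw [hone, Module.End.one_apply, hprod] at h1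
    have h2 : (1 : K) • w1 = (s ^ p ^ m) • w1 := by rwa [one_smul]
    exact (smul_left_injective K hw10 h2).symm
  obtain ⟨f, hf⟩ := hQ ⟨c, hcQ⟩
  have hsq : s ^ q ^ f = 1 := by
    have hpw : ∀ t : ℕ, ρ (c ^ t) w1 = s ^ t • w1 := by
      intro t
      induction t with
      | zero => rw [pow_zero, pow_zero, map_one, Module.End.one_apply, one_smul]
      | succ t iht => rw [pow_succ', rho_mul, iht, map_smul, hs _ hw1, smul_smul, ← pow_succ]
    have h1 := hpw (q ^ f)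
    rw [show c ^ q ^ f = 1 from congrArg Subtype.val hf, map_one, Module.End.one_apply] at h1
    have h2 : (1 : K) • w1 = (s ^ q ^ f) • w1 := by rwa [one_smul]
    exact (smul_left_injective K hw10 h2).symm
  have hs1 : s = 1 := by
    have h := pow_gcd_eq_one.mpr ⟨hsp, hsq⟩
    rwa [show Nat.gcd (p ^ m) (q ^ f) = 1 from
      Nat.Coprime.pow m f ((Nat.coprime_primes hp hq).mpr hqp.symm), pow_one] at h
  rw [hs _ hw1, hs1, one_smul]

/-- No fixed vectors: the top power of `x` centralises the image of `Q`. -/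
theorem key {p q : ℕ} [Fact p.Prime] [Fact q.Prime] (hp2 : p ≠ 2) (hqp : q ≠ p)
    (hpK : (p : K) ≠ 0) (hqK : (q : K) ≠ 0) {G : Type u} [Group G] {V : Type v} [AddCommGroup V] [Module K V]
    [FiniteDimensional K V] (ρ : G →* Module.End K V) (Q : Subgroup G) [Finite Q] (x : G) {n : ℕ} (hn : n ≠ 0)
    (hQ : IsPGroup q Q) (hxQ : x ∈ Subgroup.normalizer (Q : Set G)) (hxN : x ^ p ^ n = 1)
    (hfpf : ∀ u ∈ Q, x * u * x⁻¹ = u → u = 1) (hV : ∀ v : V, ρ x v = v → v = 0) :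
    ∀ u ∈ Q, ρ (x ^ p ^ (n - 1) * u * (x ^ p ^ (n - 1))⁻¹) = ρ u := by
  intro u hu
  have hsum : ∑ i ∈ Finset.range (p ^ n), ρ (x ^ i) = 0 := by
    refine LinearMap.ext fun v => hV _ ?_
    rw [LinearMap.sum_apply, map_sum]
    simp only [← rho_mul, ← pow_succ']
    have h1 := Finset.sum_range_succ' (fun i => ρ (x ^ i) v) (p ^ n)
    rw [Finset.sum_range_succ, hxN, pow_zero] at h1
    exact (add_right_cancel h1).symm
  obtain ⟨D, φ, hφ⟩ := exists_extendScalars (K := K) (V := V) (AlgebraicClosure K)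
  have hcast : ∀ t : ℕ, (t : K) ≠ 0 → (t : AlgebraicClosure K) ≠ 0 := fun t ht h =>
    ht ((algebraMap K (AlgebraicClosure K)).injective (by rw [map_natCast, map_zero, h]))
  refine hφ (key_aux hp2 hqp (hcast p hpK) (hcast q hqK) _ G (Fin D → AlgebraicClosure K)
    (φ.toMonoidHom.comp ρ) Q x n rfl hn hQ hxQ hxN hfpf ?_ u hu)
  show ∑ i ∈ Finset.range (p ^ n), φ (ρ (x ^ i)) = 0
  rw [← map_sum, hsum, map_zero]

end Cfsg.Agent.Lib.ShultGross
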