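import Cfsg.Agent.Lib.ShultGross.Key
import Cfsg.Agent.Lib.HallHigman.Faithful
import Cfsg.Agent.Lib.Hall.Solvable
import Cfsg.Agent.Lib.Coprime.Action
import Mathlib.GroupTheory.SemidirectProduct

set_option autoImplicit false

/-! Shult–Gross: the Fitting height under a fixed-point-free automorphism of odd prime power order. -/

namespace Cfsg.Agent.Lib.ShultGross

open Cfsg
open Cfsg.Agent.Lib.Hall
open scoped commutatorElement

universe u

/-- A fixed coset of an invariant subgroup contains a fixed point. -/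
theorem mem_of_fixed_coset {Γ : Type u} [Group Γ] [Finite Γ] {N K : Subgroup Γ} {x : Γ}
    (hfpf : ∀ u ∈ N, x * u * x⁻¹ = u → u = 1) (hKN : K ≤ N) (hK : ∀ k ∈ K, x * k * x⁻¹ ∈ K) {g : Γ} (hg : g ∈ N)
    (hgK : g⁻¹ * (x * g * x⁻¹) ∈ K) : g ∈ K := by
  have key : ∀ a b : Γ, a ∈ N → b ∈ N → a⁻¹ * (x * a * x⁻¹) = b⁻¹ * (x * b * x⁻¹) → a = b := by
    intro a b ha hb h
    have h1 : x * (b * a⁻¹) * x⁻¹ = b * a⁻¹ := by
      calc x * (b * a⁻¹) * x⁻¹ = b * (b⁻¹ * (x * b * x⁻¹)) * (a⁻¹ * (x * a * x⁻¹))⁻¹ * a⁻¹ := by group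
        _ = b * a⁻¹ := by rw [← h]; group
    exact (mul_inv_eq_one.mp (hfpf _ (N.mul_mem hb (N.inv_mem ha)) h1)).symm
  let f : K → K := fun k => ⟨(k : Γ)⁻¹ * (x * (k : Γ) * x⁻¹), K.mul_mem (K.inv_mem k.2) (hK k k.2)⟩
  have hf : Function.Injective f := fun a b h =>
    Subtype.ext (key _ _ (hKN a.2) (hKN b.2) (congrArg Subtype.val h))
  obtain ⟨k, hk⟩ := (Finite.injective_iff_surjective.mp hf) ⟨_, hgK⟩
  rw [← key _ _ (hKN k.2) hg (congrArg Subtype.val hk)]
  exact k.2

/-- The top power of the automorphism centralises the group modulo the Fitting subgroup. -/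
theorem central {p : ℕ} [Fact p.Prime] (hp2 : p ≠ 2) {Γ : Type u} [Group Γ] [Finite Γ] (N : Subgroup Γ) [N.Normal]
    [Group.IsSolvable N] (x : Γ) {n : ℕ} (hn : n ≠ 0) (hxN : x ^ p ^ n = 1)
    (hfpf : ∀ u ∈ N, x * u * x⁻¹ = u → u = 1) :
    ∀ g ∈ N, g⁻¹ * (x ^ p ^ (n - 1) * g * (x ^ p ^ (n - 1))⁻¹) ∈ (fittingSubgroup N).map N.subtype := by
  classical
  have hp : p.Prime := Fact.out
  set y := x ^ p ^ (n - 1) with hy
  have hyp : y ^ p = 1 := by
    rw [hy, ← pow_mul, ← pow_succ, Nat.sub_add_cancel (Nat.one_le_iff_ne_zero.mpr hn), hxN]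
  set A := Subgroup.zpowers x with hA
  have hAp : IsPGroup p A := by
    obtain ⟨i, -, hi⟩ := (Nat.dvd_prime_pow hp).mp (orderOf_dvd_of_pow_eq_one hxN)
    exact IsPGroup.of_card (n := i) (by rw [hA, Nat.card_zpowers, hi])
  -- `p` does not divide the order of `N`
  have hpN : ¬ p ∣ Nat.card N := by
    intro hd
    letI : MulAction A N := MulAction.compHom N ((MulAut.conjNormal (H := N)).comp A.subtype)
    have hfix : Nat.card (MulAction.fixedPoints A N) = 1 := by
      rw [Nat.card_eq_one_iff_unique]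
      refine ⟨⟨fun a b => ?_⟩, ⟨⟨1, fun g => map_one (MulAut.conjNormal (H := N) (g : Γ))⟩⟩⟩
      have h : ∀ c : MulAction.fixedPoints A N, (c : N) = 1 := fun c =>
        Subtype.ext (hfpf _ (c : N).2 (congrArg Subtype.val (c.2 ⟨x, Subgroup.mem_zpowers x⟩)))
      exact Subtype.ext ((h a).trans (h b).symm)
    have h := hAp.card_modEq_card_fixedPoints N
    rw [hfix, Nat.ModEq, Nat.mod_eq_of_lt hp.one_lt, Nat.mod_eq_zero_of_dvd hd] at h
    exact zero_ne_one h
  let R : ℕ → Subgroup Γ := fun r => (pCore r N).map N.subtype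
  have hRN : ∀ r, R r ≤ N := fun r => Subgroup.map_subtype_le _
  have hRn : ∀ r, (R r).Normal := fun r => inferInstance
  set F := (fittingSubgroup N).map N.subtype with hF
  have hFn : F.Normal := inferInstance
  have hFN : F ≤ N := Subgroup.map_subtype_le _
  set π := QuotientGroup.mk' F with hπ
  set Nb := N.map π with hNb
  have hNbn : Nb.Normal := Subgroup.Normal.map inferInstance π (QuotientGroup.mk'_surjective F)
  haveI : Group.IsSolvable Nb := Group.isSolvable_of_surjective (π.subgroupMap_surjective N)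
  suffices hQ : ∀ q : Nat.Primes, ∀ f ∈ (pCore (q : ℕ) Nb).map Nb.subtype, π y * f = f * π y by
    intro g hg
    have hgb : π g ∈ Nb := Subgroup.mem_map_of_mem π hg
    set e := g⁻¹ * (y * g * y⁻¹) with he
    have heN : e ∈ N := N.mul_mem (N.inv_mem hg) ((inferInstance : N.Normal).conj_mem g hg y)
    have hcomm : ∀ f ∈ (fittingSubgroup Nb).map Nb.subtype, π y * f = f * π y := by
      have hle : (fittingSubgroup Nb).map Nb.subtype ≤ Subgroup.centralizer ({π y} : Set (Γ ⧸ F)) := by
        rw [fittingSubgroup_eq_iSup_pCore, Subgroup.map_iSup]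
        exact iSup_le fun q f hf => Subgroup.mem_centralizer_singleton_iff.mpr (hQ q f hf).symm
      exact fun f hf => (Subgroup.mem_centralizer_singleton_iff.mp (hle hf)).symm
    have hec : (⟨π e, Subgroup.mem_map_of_mem π heN⟩ : Nb) ∈ Subgroup.centralizer (fittingSubgroup Nb : Set Nb) := by
      rw [Subgroup.mem_centralizer_iff]
      intro f hf
      refine Subtype.ext ?_
      show (f : Γ ⧸ F) * π e = π e * (f : Γ ⧸ F)
      have h1 := hcomm _ (Subgroup.mem_map_of_mem Nb.subtype hf)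
      have h2 := hcomm _ (Subgroup.mem_map_of_mem Nb.subtype
        ((inferInstance : (fittingSubgroup Nb).Normal).conj_mem f hf ⟨π g, hgb⟩))
      change π y * (π g * (f : Γ ⧸ F) * (π g)⁻¹) = π g * (f : Γ ⧸ F) * (π g)⁻¹ * π y at h2
      have h3 : π y * π g * (π y)⁻¹ * (f : Γ ⧸ F) = π g * (f : Γ ⧸ F) * (π g)⁻¹ * (π y * π g * (π y)⁻¹) := by
        have h4 : (π y)⁻¹ * (f : Γ ⧸ F) = (f : Γ ⧸ F) * (π y)⁻¹ :=
          ((show Commute (π y) (f : Γ ⧸ F) from h1).inv_left).eq
        calc π y * π g * (π y)⁻¹ * (f : Γ ⧸ F) = π y * π g * ((π y)⁻¹ * (f : Γ ⧸ F)) := by group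
          _ = π y * (π g * (f : Γ ⧸ F) * (π g)⁻¹) * π g * (π y)⁻¹ := by rw [h4]; group
          _ = _ := by rw [h2]; group
      rw [he, map_mul, map_inv, map_mul, map_mul, map_inv]
      calc (f : Γ ⧸ F) * ((π g)⁻¹ * (π y * π g * (π y)⁻¹))
          = (π g)⁻¹ * (π g * (f : Γ ⧸ F) * (π g)⁻¹ * (π y * π g * (π y)⁻¹)) := by group
        _ = (π g)⁻¹ * (π y * π g * (π y)⁻¹ * (f : Γ ⧸ F)) := by rw [h3]
        _ = _ := by group
    have hye : π y * π e = π e * π y :=
      hcomm _ (Subgroup.mem_map_of_mem Nb.subtype (centralizer_fittingSubgroup_le hec))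
    have hiter : ∀ j : ℕ, π y ^ j * π g * (π y ^ j)⁻¹ = π g * π e ^ j := by
      intro j
      induction j with
      | zero => simp
      | succ j ih =>
        have hyg : π y * π g * (π y)⁻¹ = π g * π e := by rw [he]; simp [mul_assoc]
        calc π y ^ (j + 1) * π g * (π y ^ (j + 1))⁻¹ = π y * (π y ^ j * π g * (π y ^ j)⁻¹) * (π y)⁻¹ := by
              rw [pow_succ']; group
          _ = π y * π g * (π y)⁻¹ * (π y * π e ^ j * (π y)⁻¹) := by rw [ih]; group
          _ = π g * π e * π e ^ j := by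
              rw [hyg, ((show Commute (π y) (π e) from hye).pow_right j).eq]; group
          _ = π g * π e ^ (j + 1) := by rw [mul_assoc, ← pow_succ']
    have h1 := hiter p
    rw [← map_pow, hyp, map_one, one_mul, inv_one, mul_one, left_eq_mul] at h1
    have h2 : (⟨π e, Subgroup.mem_map_of_mem π heN⟩ : Nb) ^ p = 1 := Subtype.ext h1
    have hpNb : ¬ p ∣ Nat.card Nb := fun h => hpN (h.trans (Subgroup.card_map_dvd N π))
    have h3 : (⟨π e, Subgroup.mem_map_of_mem π heN⟩ : Nb) = 1 := by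
      rcases (Nat.dvd_prime hp).mp (orderOf_dvd_of_pow_eq_one h2) with h | h
      · exact orderOf_eq_one_iff.mp h
      · exact absurd (h ▸ orderOf_dvd_natCard _) hpNb
    exact (QuotientGroup.eq_one_iff e).mp (congrArg Subtype.val h3)
  rintro ⟨q, hq⟩ f hf
  haveI := Fact.mk hq
  set Qb := (pCore q Nb).map Nb.subtype with hQb
  have hQbn : Qb.Normal := inferInstance
  have hQbq : IsPGroup q Qb := (isPGroup_pCore q).map _
  set M := Qb.comap π with hM
  have hMn : M.Normal := hQbn.comap π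
  have hFM : F ≤ M := fun z hz => by
    show π z ∈ Qb
    rw [show π z = 1 from (QuotientGroup.eq_one_iff z).mpr hz]; exact one_mem _
  have hMN : M ≤ N := by
    intro z hz
    obtain ⟨g, hg, he⟩ := (Subgroup.map_subtype_le _ : Qb ≤ Nb) hz
    have h2 : g⁻¹ * z ∈ F := by
      rw [← QuotientGroup.eq_one_iff]
      show π (g⁻¹ * z) = 1
      rw [map_mul, map_inv, he, inv_mul_cancel]
    simpa using N.mul_mem hg (hFN h2)
  have hAM : A ≤ Subgroup.normalizer (M : Set Γ) := by rw [Subgroup.normalizer_eq_top (H := M)]; exact le_top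
  have hcop : (Nat.card A).Coprime (Nat.card M) := by
    obtain ⟨i, hi⟩ := IsPGroup.iff_card.mp hAp
    rw [hi]
    exact Nat.Coprime.pow_left i (hp.coprime_iff_not_dvd.mpr fun h => hpN (h.trans (Subgroup.card_dvd_of_le hMN)))
  haveI : Group.IsSolvable A := Group.isSolvable_of_comm fun a b => mul_comm' a b
  obtain ⟨Q0, hAQ⟩ := Coprime.exists_invariant_sylow hAM hcop (Or.inl inferInstance) q
  set Q := (Q0 : Subgroup M).map M.subtype with hQdef
  have hQM : Q ≤ M := Subgroup.map_subtype_le _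
  have hQq : IsPGroup q Q := Q0.2.map _
  -- the commutators act trivially on every other core
  have hcent : ∀ r : Nat.Primes, (r : ℕ) ≠ q → ∀ u ∈ Q, ∀ a ∈ R r,
      u⁻¹ * (y * u * y⁻¹) * a = a * (u⁻¹ * (y * u * y⁻¹)) := by
    rintro ⟨r, hr⟩ hrq u hu a ha
    change r ≠ q at hrq
    change a ∈ R r at ha
    haveI := Fact.mk hr
    by_cases hrp : r = p
    · subst hrp
      have hbot : R r = ⊥ := by
        show (pCore r N).map N.subtype = ⊥
        rw [pCore_eq_bot_of_not_dvd hpN, Subgroup.map_bot]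
      rw [hbot, Subgroup.mem_bot] at ha
      rw [ha, one_mul, mul_one]
    set c := u⁻¹ * (y * u * y⁻¹) with hc
    have hcQ : c ∈ Q := Q.mul_mem (Q.inv_mem hu)
      ((Subgroup.mem_normalizer_iff.mp (Subgroup.pow_mem _ (hAQ (Subgroup.mem_zpowers x)) _) u).mp hu)
    by_cases hqp : q = p
    · obtain ⟨i, hi⟩ := IsPGroup.iff_card.mp hQq
      rcases Nat.eq_zero_or_pos i with h0 | h0
      · rw [h0, pow_zero, Subgroup.card_eq_one] at hi
        rw [hi, Subgroup.mem_bot] at hcQ
        rw [hcQ, one_mul, mul_one]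
      · exact absurd ((dvd_of_eq hqp.symm).trans (((dvd_pow_self q h0.ne').trans (dvd_of_eq hi.symm)).trans
          (Subgroup.card_dvd_of_le (hQM.trans hMN)))) hpN
    have hRp : IsPGroup r (R r) := (isPGroup_pCore r).map _
    obtain ⟨V, i1, i2, i3, πV, ρ, hπs, hπadd, hπ0, hρ⟩ := HallHigman.exists_frattiniModule (R r) hRp
    let K : Subgroup Γ := (frattini (R r)).map (R r).subtype
    have hKn : K.Normal := inferInstance
    have hV : ∀ v : V, ρ x v = v → v = 0 := by
      intro v hv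
      obtain ⟨b, rfl⟩ := hπs v
      rw [hρ] at hv
      have h1 : b⁻¹ * MulAut.conjNormal x b ∈ frattini (R r) := by
        rw [← hπ0]
        have h2 := hπadd b (b⁻¹ * MulAut.conjNormal x b)
        rw [mul_inv_cancel_left, hv] at h2
        exact left_eq_add.mp h2
      have h3 : (b : Γ) ∈ K := mem_of_fixed_coset hfpf ((Subgroup.map_subtype_le _).trans (hRN r))
        (fun k hk => hKn.conj_mem k hk x) (hRN r b.2) (Subgroup.mem_map_of_mem (R r).subtype h1)
      obtain ⟨d, hd, hdb⟩ := h3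
      rw [← Subtype.ext hdb, hπ0]
      exact hd
    have hcast : ∀ t : ℕ, t.Prime → t ≠ r → ((t : ℕ) : ZMod r) ≠ 0 := fun t ht hne h =>
      hne ((Nat.prime_dvd_prime_iff_eq hr ht).mp ((ZMod.natCast_eq_zero_iff t r).mp h)).symm
    have hkey := key hp2 hqp (hcast p hp (Ne.symm hrp)) (hcast q hq (Ne.symm hrq)) ρ Q x hn hQq
      (hAQ (Subgroup.mem_zpowers x)) hxN (fun w hw => hfpf w (hMN (hQM hw))) hV u hu
    have hρc : ρ c = 1 := by
      rw [hc, map_mul, hkey, ← map_mul, inv_mul_cancel, map_one]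
    set C := Subgroup.zpowers c with hC
    have hCR : C ≤ Subgroup.normalizer (R r : Set Γ) := by rw [Subgroup.normalizer_eq_top (H := R r)]; exact le_top
    have hcopC : (Nat.card C).Coprime (Nat.card (frattini (R r))) := by
      obtain ⟨i, hi⟩ := IsPGroup.iff_card.mp (hQq.to_le (Subgroup.zpowers_le.mpr hcQ) : IsPGroup q C)
      obtain ⟨e, he⟩ := IsPGroup.iff_card.mp (hRp.to_subgroup (frattini (R r)))
      rw [hi, he]
      exact Nat.Coprime.pow i e ((Nat.coprime_primes hq hr).mpr (Ne.symm hrq))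
    have htriv : ∀ z ∈ C, ∀ k ∈ R r, z * k * z⁻¹ * k⁻¹ ∈ (frattini (R r)).map (R r).subtype := by
      intro z hz k hk
      have hzρ : ρ z = 1 := MonoidHom.mem_ker.mp (Subgroup.zpowers_le.mpr (MonoidHom.mem_ker.mpr hρc) hz)
      refine ⟨MulAut.conjNormal z (⟨k, hk⟩ : R r) * (⟨k, hk⟩ : R r)⁻¹, ?_, rfl⟩
      refine (hπ0 _).mp ?_
      have h2 := hπadd (MulAut.conjNormal z (⟨k, hk⟩ : R r) * (⟨k, hk⟩ : R r)⁻¹) ⟨k, hk⟩
      rw [inv_mul_cancel_right, ← hρ, hzρ, Module.End.one_apply] at h2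
      exact right_eq_add.mp h2
    have h4 := Coprime.le_centralizer_of_frattini hCR hcopC htriv (Subgroup.mem_zpowers c)
    exact (Subgroup.mem_centralizer_iff.mp h4 a ha).symm
  -- the part of `M` centralising the other cores is nilpotent
  let D : Subgroup Γ := ⨆ r : {r : Nat.Primes // (r : ℕ) ≠ q}, R (r : Nat.Primes)
  have hDn : D.Normal := by
    haveI : ∀ r : {r : Nat.Primes // (r : ℕ) ≠ q}, (R (r : Nat.Primes)).Normal := fun r => hRn _
    exact Subgroup.iSup_normal _
  let L : Subgroup Γ := M ⊓ Subgroup.centralizer (D : Set Γ)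
  have hLn : L.Normal := inferInstance
  have hLN : L ≤ N := inf_le_left.trans hMN
  have hMD : ∀ g ∈ M, ∃ i, g ^ q ^ i ∈ D := by
    intro g hg
    obtain ⟨i, hi⟩ := hQbq ⟨π g, hg⟩
    have h1 : g ^ q ^ i ∈ F := (QuotientGroup.eq_one_iff _).mp
      ((map_pow π g _).trans (congrArg Subtype.val hi))
    have h2 : g ^ q ^ i ∈ D ⊔ R q := by
      refine (?_ : F ≤ D ⊔ R q) h1
      rw [hF, fittingSubgroup_eq_iSup_pCore, Subgroup.map_iSup]
      refine iSup_le fun r => ?_
      by_cases h : (r : ℕ) = q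
      · rw [h]; exact le_sup_right
      · exact le_sup_of_le_left (le_iSup (fun r : {r : Nat.Primes // (r : ℕ) ≠ q} => R (r : Nat.Primes)) ⟨r, h⟩)
    obtain ⟨d, hd, b, hb, hdb⟩ := Subgroup.mem_sup_of_normal_left.mp h2
    have hRq : IsPGroup q (R q) := (isPGroup_pCore q).map _
    obtain ⟨k, hk⟩ := hRq ⟨b, hb⟩
    refine ⟨i + k, ?_⟩
    rw [pow_add, pow_mul, ← hdb, ← QuotientGroup.eq_one_iff, QuotientGroup.mk_pow, QuotientGroup.mk_mul,
      (QuotientGroup.eq_one_iff d).mpr hd, one_mul, ← QuotientGroup.mk_pow,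
      show b ^ q ^ k = 1 from congrArg Subtype.val hk, QuotientGroup.mk_one]
  have hLnil : Group.IsNilpotent L := by
    refine Group.of_quotient_center_nilpotent ?_
    refine IsPGroup.isNilpotent (p := q) fun z => ?_
    obtain ⟨l, rfl⟩ := QuotientGroup.mk_surjective z
    obtain ⟨i, hi⟩ := hMD l l.2.1
    refine ⟨i, ?_⟩
    rw [← QuotientGroup.mk_pow, QuotientGroup.eq_one_iff, Subgroup.mem_center_iff]
    intro g
    refine Subtype.ext ?_
    show (g : Γ) * (l : Γ) ^ q ^ i = (l : Γ) ^ q ^ i * (g : Γ)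
    exact (Subgroup.mem_centralizer_iff.mp g.2.2 _ hi).symm
  have hLF : L ≤ F := by
    rw [← Subgroup.map_subgroupOf_eq_of_le hLN]
    refine Subgroup.map_mono (le_fittingSubgroup ?_)
    exact Group.nilpotent_of_mulEquiv (Subgroup.subgroupOfEquivOfLe hLN).symm
  obtain ⟨g, hgQ, rfl⟩ : f ∈ Q.map π := by
    haveI : Fact q.Prime := ⟨hq⟩
    have h1 : ((Q0 : Subgroup M).map (π.subgroupMap M)) = ⊤ := by
      have hsurj := π.subgroupMap_surjective M
      have hMb : IsPGroup q (M.map π) := hQbq.to_le (Subgroup.map_comap_le π Qb)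
      let T := Q0.mapSurjective hsurj
      have hT : IsPGroup q (⊤ : Subgroup (M.map π)) := hMb.to_subgroup ⊤
      exact ((T.is_maximal' hT le_top).symm : (T : Subgroup (M.map π)) = ⊤)
    have hfM : f ∈ M.map π := by
      rw [hM, Subgroup.map_comap_eq_self_of_surjective (QuotientGroup.mk'_surjective F)]
      exact hf
    obtain ⟨m, hm, hmf⟩ := h1.ge (Subgroup.mem_top (⟨f, hfM⟩ : M.map π))
    exact ⟨(m : Γ), Subgroup.mem_map_of_mem M.subtype hm, congrArg Subtype.val hmf⟩
  set c := g⁻¹ * (y * g * y⁻¹) with hc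
  have hcM : c ∈ M := M.mul_mem (M.inv_mem (hQM hgQ)) (hMn.conj_mem g (hQM hgQ) y)
  have hcF : c ∈ F := hLF ⟨hcM, Subgroup.mem_centralizer_iff.mpr fun d hd => by
    have hle : D ≤ Subgroup.centralizer ({c} : Set Γ) := iSup_le fun r a ha =>
      Subgroup.mem_centralizer_singleton_iff.mpr (hcent r.1 r.2 g hgQ a ha).symm
    exact Subgroup.mem_centralizer_singleton_iff.mp (hle hd)⟩
  have h1 : π c = 1 := (QuotientGroup.eq_one_iff c).mpr hcF
  rw [hc, map_mul, map_inv, map_mul, map_mul, map_inv, inv_mul_eq_one] at h1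
  exact (mul_inv_eq_iff_eq_mul.mp h1.symm)

/-- The chain. -/
theorem fittingHeight_le {p : ℕ} [Fact p.Prime] (hp2 : p ≠ 2) : ∀ (n : ℕ) (G : Type u) [Group G] [Finite G],
    Group.IsSolvable G → ∀ σ : MulAut G, σ ^ p ^ n = 1 → (∀ g : G, σ g = g → g = 1) →
    ∃ F : Fin (n + 1) → Subgroup G, F 0 = ⊥ ∧ F (Fin.last n) = ⊤ ∧ Monotone F ∧ (∀ i, (F i).Normal) ∧
      ∀ i : Fin n, ∃ k : ℕ, (F i.succ).lowerCentralSeries k ≤ F i.castSucc := by
  intro n
  induction n with
  | zero =>
    intro G _ _ _ σ hσ hfpf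
    rw [pow_zero, pow_one] at hσ
    have h1 : (⊥ : Subgroup G) = ⊤ := by
      refine top_le_iff.mp fun g _ => ?_
      rw [Subgroup.mem_bot]
      exact hfpf g (by rw [hσ]; rfl)
    exact ⟨fun _ => ⊥, rfl, h1, fun _ _ _ => le_rfl, fun _ => inferInstance, fun i => i.elim0⟩
  | succ n ih =>
    intro G _ _ hG σ hσ hfpf
    haveI := hG
    let φ : Subgroup.zpowers σ →* MulAut G := (Subgroup.zpowers σ).subtype
    let Γ := G ⋊[φ] Subgroup.zpowers σ
    haveI : Finite Γ := Finite.of_equiv _ SemidirectProduct.equivProd.symm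
    let N : Subgroup Γ := (SemidirectProduct.inl : G →* Γ).range
    haveI : N.Normal := by
      show ((SemidirectProduct.inl : G →* Γ).range).Normal
      rw [SemidirectProduct.range_inl_eq_ker_rightHom]; infer_instance
    haveI : Group.IsSolvable N := Group.isSolvable_of_surjective (SemidirectProduct.inl (φ := φ)).rangeRestrict_surjective
    let x : Γ := SemidirectProduct.inr ⟨σ, Subgroup.mem_zpowers σ⟩
    have hconj : ∀ (i : ℕ) (g : G), x ^ i * SemidirectProduct.inl g * (x ^ i)⁻¹ = SemidirectProduct.inl ((σ ^ i) g) := by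
      intro i g
      rw [← map_pow, ← map_inv, ← SemidirectProduct.inl_aut]
      rfl
    have hxN : x ^ p ^ (n + 1) = 1 := by
      rw [← map_pow, show (⟨σ, Subgroup.mem_zpowers σ⟩ : Subgroup.zpowers σ) ^ p ^ (n + 1) = 1 from Subtype.ext hσ,
        map_one]
    have hfpf' : ∀ u ∈ N, x * u * x⁻¹ = u → u = 1 := by
      rintro _ ⟨g, rfl⟩ h
      have h1 := hconj 1 g
      rw [pow_one, pow_one, h] at h1
      rw [hfpf g (SemidirectProduct.inl_injective h1).symm, map_one]
    have hcen := central hp2 N x (n := n + 1) (Nat.succ_ne_zero n) hxN hfpf'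
    rw [Nat.add_sub_cancel] at hcen
    let e : G ≃* N := MonoidHom.ofInjective SemidirectProduct.inl_injective
    have hF : ∀ g : G, g⁻¹ * (σ ^ p ^ n) g ∈ fittingSubgroup G := by
      intro g
      have h := hcen _ ⟨g, rfl⟩
      rw [hconj, ← map_inv, ← map_mul] at h
      obtain ⟨z, hz, hze⟩ := h
      have h2 : z = e (g⁻¹ * (σ ^ p ^ n) g) := Subtype.ext hze
      obtain ⟨w, hw, hwz⟩ : z ∈ (fittingSubgroup G).map e.toMonoidHom := by
        have h3 := map_fittingSubgroup_le e.symm.surjective (Subgroup.mem_map_of_mem (f := e.symm.toMonoidHom) hz)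
        exact ⟨_, h3, e.apply_symm_apply z⟩
      rw [h2] at hwz
      rwa [← e.injective hwz]
    set Fit := fittingSubgroup G with hFit
    have hmap : Fit.map σ.toMonoidHom = Fit := Subgroup.characteristic_iff_map_eq.mp inferInstance σ
    let σ' : MulAut (G ⧸ Fit) := QuotientGroup.congr Fit Fit σ hmap
    have hσ' : ∀ (i : ℕ) (g : G), (σ' ^ i) (g : G ⧸ Fit) = (((σ ^ i) g : G) : G ⧸ Fit) := by
      intro i
      induction i with
      | zero => intro g; rfl
      | succ i ihi =>
        intro g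
        rw [pow_succ', pow_succ', MulAut.mul_apply, MulAut.mul_apply, ihi]
        rfl
    obtain ⟨F', hF'0, hF'last, hF'mono, hF'n, hF'nil⟩ := ih (G ⧸ Fit)
      (Group.isSolvable_of_surjective (QuotientGroup.mk'_surjective Fit)) σ' (by
        refine MulEquiv.ext fun z => QuotientGroup.induction_on z fun g => ?_
        rw [hσ', MulAut.one_apply]
        exact (QuotientGroup.eq.mpr (hF g)).symm) (fun z => QuotientGroup.induction_on z fun g hg => by
        have h1 := hσ' 1 g
        rw [pow_one, pow_one, hg, QuotientGroup.eq] at h1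
        rw [QuotientGroup.eq_one_iff]
        have h2 : (SemidirectProduct.inl g : Γ) ∈ Fit.map SemidirectProduct.inl := by
          refine mem_of_fixed_coset hfpf' (Subgroup.map_le_range _ _) ?_ ⟨g, rfl⟩ ?_
          · rintro _ ⟨k, hk, rfl⟩
            have h3 := hconj 1 k
            rw [pow_one, pow_one] at h3
            exact ⟨σ k, hmap.le (Subgroup.mem_map_of_mem σ.toMonoidHom hk), h3.symm⟩
          · have h3 := hconj 1 g
            rw [pow_one, pow_one] at h3
            rw [h3, ← map_inv, ← map_mul]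
            exact Subgroup.mem_map_of_mem _ h1
        obtain ⟨k, hk, hkg⟩ := h2
        rwa [← SemidirectProduct.inl_injective hkg])
    refine ⟨Fin.cons ⊥ fun i => (F' i).comap (QuotientGroup.mk' Fit), rfl, ?_, ?_, ?_, ?_⟩
    · rw [← Fin.succ_last, Fin.cons_succ, hF'last, Subgroup.comap_top]
    · refine Fin.monotone_iff_le_succ.mpr fun i => ?_
      induction i using Fin.cases with
      | zero => simp
      | succ i =>
        rw [← Fin.succ_castSucc, Fin.cons_succ, Fin.cons_succ]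
        exact Subgroup.comap_mono (hF'mono (Fin.le_iff_val_le_val.mpr (by simp)))
    · intro i
      induction i using Fin.cases with
      | zero => rw [Fin.cons_zero]; infer_instance
      | succ i => rw [Fin.cons_succ]; exact (hF'n i).comap _
    · intro i
      induction i using Fin.cases with
      | zero =>
        rw [Fin.cons_succ, hF'0, MonoidHom.comap_bot, QuotientGroup.ker_mk', Fin.castSucc_zero, Fin.cons_zero]
        obtain ⟨k, hk⟩ := (Subgroup.isNilpotent_iff_lowerCentralSeries _).mp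
          (fittingSubgroup_isNilpotent (G := G))
        exact ⟨k, hk.le⟩
      | succ i =>
        rw [Fin.cons_succ, ← Fin.succ_castSucc, Fin.cons_succ]
        obtain ⟨k, hk⟩ := hF'nil i
        refine ⟨k, ?_⟩
        rw [← Subgroup.map_le_iff_le_comap, Subgroup.map_lowerCentralSeries,
          Subgroup.map_comap_eq_self_of_surjective (QuotientGroup.mk'_surjective Fit)]
        exact hk

end Cfsg.Agent.Lib.ShultGross
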