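import Cfsg.Agent.Lib.ShultGross.Orbit
import Cfsg.Agent.Lib.HallHigman.TheoremB
import Cfsg.Agent.Lib.FitHeight.HallHigman
import Mathlib.GroupTheory.GroupAction.Quotient

set_option autoImplicit false

/-! An element of prime power order without fixed vectors on an irreducible module of a `q`-group of class two. -/

namespace Cfsg.Agent.Lib.ShultGross

open Cfsg.Agent.Lib.HallHigman

universe u v w

/-- A permutation of finite order whose nontrivial powers fix only one point. -/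
theorem dvd_card_sub_one {X : Type u} [Fintype X] (σ : Equiv.Perm X) {N : ℕ} (hN : 0 < N) (hσ : σ ^ N = 1) (x₀ : X)
    (hx₀ : σ x₀ = x₀) (hfree : ∀ (i : ℕ) (x : X), 0 < i → i < N → (σ ^ i) x = x → x = x₀) :
    N ∣ Fintype.card X - 1 := by
  classical
  rcases eq_or_ne (Fintype.card X - 1) 0 with h | h
  · rw [h]; exact dvd_zero N
  obtain ⟨x1, hx1⟩ : ∃ x : X, x ≠ x₀ := Fintype.exists_ne_of_one_lt_card (by omega) x₀
  have hord : orderOf σ = N := by
    rcases (orderOf_le_of_pow_eq_one hN hσ).lt_or_eq with hlt | he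
    · exact absurd (hfree _ x1 (orderOf_pos σ) hlt (by rw [pow_orderOf_eq_one]; rfl)) hx1
    · exact he
  set P := Subgroup.zpowers σ with hP
  have hmove : ∀ g : P, ∀ x : X, x ≠ x₀ → (g : Equiv.Perm X) x ≠ x₀ := by
    intro g x hx h
    apply hx
    obtain ⟨m, hm⟩ := g.2
    have h0 : (g : Equiv.Perm X) x₀ = x₀ := by
      rw [← hm]
      exact Equiv.Perm.zpow_apply_eq_self_of_apply_eq_self hx₀ m
    exact (g : Equiv.Perm X).injective (h.trans h0.symm)
  letI : MulAction P {x : X // x ≠ x₀} :=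
    { smul := fun g x => ⟨(g : Equiv.Perm X) x.1, hmove g x.1 x.2⟩
      one_smul := fun x => Subtype.ext rfl
      mul_smul := fun g g' x => Subtype.ext rfl }
  have hfree' : ∀ x : {x : X // x ≠ x₀}, MulAction.stabilizer P x = ⊥ := by
    intro x
    rw [Subgroup.eq_bot_iff_forall]
    intro g hg
    obtain ⟨i, hi⟩ := (mem_powers_iff_mem_zpowers (x := σ)).mpr g.2
    have hfix : (g : Equiv.Perm X) x.1 = x.1 := congrArg Subtype.val hg
    refine Subtype.ext ?_
    rw [← show σ ^ i = (g : Equiv.Perm X) from hi, pow_eq_pow_mod i hσ]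
    rcases Nat.eq_zero_or_pos (i % N) with h0 | h0
    · rw [h0, pow_zero]; rfl
    · refine absurd (hfree _ x.1 h0 (Nat.mod_lt _ hN) ?_) x.2
      rw [← pow_eq_pow_mod i hσ, show σ ^ i = (g : Equiv.Perm X) from hi]
      exact hfix
  have h2 := Nat.card_congr (MulAction.selfEquivOrbitsQuotientProd hfree')
  rw [Nat.card_prod, Nat.card_zpowers, hord, Nat.card_eq_fintype_card, Fintype.card_subtype_compl,
    Fintype.card_subtype_eq] at h2
  exact ⟨_, h2.trans (mul_comm _ _)⟩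

theorem eq_sub_one_of_bounds {p n D C : ℕ} (hp : p.Prime) (hp2 : p ≠ 2) (hD : 2 ≤ D)
    (h1 : D ^ 2 ≤ (p ^ n - 1) * C) (h2 : p ^ n * C ≤ D ^ 2 - 1 + p ^ n) (h3 : p ^ n ∣ D ^ 2 - 1) :
    D + 1 = p ^ n := by
  obtain ⟨N, hN⟩ : ∃ N, p ^ n = N + 1 := ⟨p ^ n - 1, by have := Nat.one_le_pow n p hp.pos; omega⟩
  obtain ⟨E, hE⟩ : ∃ E, D ^ 2 = E + 1 := ⟨D ^ 2 - 1, by have := Nat.one_le_pow 2 D (by omega); omega⟩
  rw [hN, Nat.add_sub_cancel] at h1
  rw [hN, hE, Nat.add_sub_cancel] at h2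
  have hle : D ≤ N := by
    have h4 : D ^ 2 * (N + 1) ≤ N * (E + (N + 1)) := by
      calc D ^ 2 * (N + 1) ≤ N * C * (N + 1) := Nat.mul_le_mul_right _ h1
        _ = N * ((N + 1) * C) := by ring
        _ ≤ _ := Nat.mul_le_mul_left _ h2
    have h5 : D ^ 2 ≤ N ^ 2 := by nlinarith
    exact (Nat.pow_le_pow_iff_left two_ne_zero).mp h5
  have h6 : p ^ n ∣ (D - 1) * (D + 1) := by
    rw [show (D - 1) * (D + 1) = D ^ 2 - 1 by
      obtain ⟨d, rfl⟩ : ∃ d, D = d + 1 := ⟨D - 1, by omega⟩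
      simp only [Nat.add_sub_cancel]
      have : (d + 1) ^ 2 = d * (d + 1 + 1) + 1 := by ring
      omega]
    exact h3
  by_cases hpD : p ∣ D - 1
  · have hnot : ¬ p ∣ D + 1 := fun h => by
      have h7 : p ∣ 2 := by
        have := Nat.dvd_sub h hpD
        rwa [show D + 1 - (D - 1) = 2 by omega] at this
      exact hp2 ((Nat.prime_dvd_prime_iff_eq hp Nat.prime_two).mp h7)
    have h8 := Nat.le_of_dvd (by omega)
      ((Nat.Coprime.pow_left n ((hp.coprime_iff_not_dvd).mpr hnot)).dvd_of_dvd_mul_right h6)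
    omega
  · have h8 := Nat.le_of_dvd (by omega)
      ((Nat.Coprime.pow_left n ((hp.coprime_iff_not_dvd).mpr hpD)).dvd_of_dvd_mul_left h6)
    omega

variable {K : Type w} {G : Type u} {V : Type v} [Field K] [Group G] [AddCommGroup V] [Module K V]

theorem prim [IsAlgClosed K] [FiniteDimensional K V] [Nontrivial V] {p q : ℕ} [Fact p.Prime] [Fact q.Prime]
    (hp2 : p ≠ 2) (hqp : q ≠ p) (hpK : (p : K) ≠ 0) (hqK : (q : K) ≠ 0)
    (ρ : G →* Module.End K V) (Q : Subgroup G) [Finite Q] (hQ : IsPGroup q Q) (hirr : Irred ρ Q)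
    (x : G) {n : ℕ} (hn : n ≠ 0) (hxQ : x ∈ Subgroup.normalizer (Q : Set G)) (hxN : x ^ p ^ n = 1)
    (hsum : ∑ i ∈ Finset.range (p ^ n), ρ (x ^ i) = 0)
    (hne : ∃ u ∈ Q, ρ (x ^ p ^ (n - 1) * u * (x ^ p ^ (n - 1))⁻¹) ≠ ρ u)
    (hgen : Subgroup.closure ((fun v => v⁻¹ * (x ^ p ^ (n - 1) * v * (x ^ p ^ (n - 1))⁻¹)) '' (Q : Set G)) = Q)
    (hcomm : ∀ v ∈ Q, ∀ w ∈ Q, IsScalar ρ (v * w * v⁻¹ * w⁻¹)) :
    (∀ v ∈ Q, IsScalar ρ (v⁻¹ * (x ^ p ^ (n - 1) * v * (x ^ p ^ (n - 1))⁻¹)) → IsScalar ρ v) ∧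
      ∃ j, 1 ≤ j ∧ q ^ j + 1 = p ^ n ∧
        ∀ M : Subgroup Q, (∀ v : Q, v ∈ M ↔ IsScalar ρ (v : G)) → M.index = (q ^ j) ^ 2 := by
  classical
  have hp : p.Prime := Fact.out
  have hq : q.Prime := Fact.out
  set y := x ^ p ^ (n - 1) with hy
  have hyp : y ^ p = 1 := by
    rw [hy, ← pow_mul, ← pow_succ, Nat.sub_add_cancel (Nat.one_le_iff_ne_zero.mpr hn), hxN]
  have hyQ : y ∈ Subgroup.normalizer (Q : Set G) := Subgroup.pow_mem _ hxQ _
  have hyc : ∀ v ∈ Q, y * v * y⁻¹ ∈ Q := fun v hv => (Subgroup.mem_normalizer_iff.mp hyQ v).mp hv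
  have hcyQ : ∀ v ∈ Q, v⁻¹ * (y * v * y⁻¹) ∈ Q := fun v hv => Q.mul_mem (Q.inv_mem hv) (hyc v hv)
  have hs0 : ∀ (g : G) (s : K), ρ g = s • 1 → s ≠ 0 := by
    intro g s hs h
    obtain ⟨z, hz⟩ := exists_ne (0 : V)
    apply hz
    apply rho_injective (ρ := ρ) g
    rw [hs, h, zero_smul, LinearMap.zero_apply, LinearMap.zero_apply]
  have hsinj : ∀ s t : K, s • (1 : Module.End K V) = t • 1 → s = t :=
    fun s t h => smul_left_injective K (one_ne_zero : (1 : Module.End K V) ≠ 0) h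
  -- elements fixed by `y` are scalars
  have hyfix : ∀ v ∈ Q, ρ (y * v * y⁻¹) = ρ v → IsScalar ρ v := by
    intro v hv hfix
    refine schur hirr (ρ v) fun t ht => ?_
    rw [← hgen] at ht
    induction ht using Subgroup.closure_induction with
    | mem z hz =>
      obtain ⟨w, hw, rfl⟩ := hz
      obtain ⟨s, hs⟩ := hcomm v hv w hw
      have hsw : ρ v * ρ w = s • (ρ w * ρ v) := by
        rw [← map_mul, show v * w = v * w * v⁻¹ * w⁻¹ * (w * v) by group, map_mul _ _ (w * v), hs,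
          smul_mul_assoc, one_mul, map_mul]
      have hsw' : ρ v * ρ (y * w * y⁻¹) = s • (ρ (y * w * y⁻¹) * ρ v) := by
        rw [← hfix, ← map_mul, ← map_mul, show y * v * y⁻¹ * (y * w * y⁻¹) = y * (v * w) * y⁻¹ by group,
          show y * w * y⁻¹ * (y * v * y⁻¹) = y * (w * v) * y⁻¹ by group, map_mul, map_mul, map_mul _ v w, hsw,
          map_mul _ (y * (w * v)), map_mul _ y, map_mul _ w v, mul_smul_comm, smul_mul_assoc]
      have hyw : y * w * y⁻¹ = w * (w⁻¹ * (y * w * y⁻¹)) := (mul_inv_cancel_left _ _).symm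
      show ρ (w⁻¹ * (y * w * y⁻¹)) * ρ v = ρ v * ρ (w⁻¹ * (y * w * y⁻¹))
      generalize w⁻¹ * (y * w * y⁻¹) = c at hyw ⊢
      rw [hyw, map_mul, ← mul_assoc, hsw, smul_mul_assoc] at hsw'
      simp only [mul_assoc] at hsw'
      have h4 : ρ w * (ρ v * ρ c) = ρ w * (ρ c * ρ v) := smul_right_injective _ (hs0 _ s hs) hsw'
      have h5 := congrArg (ρ w⁻¹ * ·) h4
      simp only [← mul_assoc, ← map_mul, inv_mul_cancel, one_mul] at h5
      rw [← map_mul, ← map_mul]
      exact h5.symm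
    | one => rw [map_one, one_mul, mul_one]
    | mul a b _ _ iha ihb => rw [map_mul, mul_assoc, ihb, ← mul_assoc, iha, mul_assoc]
    | inv a _ iha =>
      calc ρ a⁻¹ * ρ v = ρ a⁻¹ * ρ v * (ρ a * ρ a⁻¹) := by rw [← map_mul ρ a, mul_inv_cancel, map_one, mul_one]
        _ = ρ a⁻¹ * (ρ v * ρ a) * ρ a⁻¹ := by simp only [mul_assoc]
        _ = ρ v * ρ a⁻¹ := by
          rw [← iha, ← mul_assoc (ρ a⁻¹), ← map_mul ρ a⁻¹ a, inv_mul_cancel, map_one, one_mul]
  have hclass : ∀ v ∈ Q, IsScalar ρ (v⁻¹ * (y * v * y⁻¹)) → IsScalar ρ v := by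
    intro v hv hsc
    obtain ⟨s, hs⟩ := hsc
    refine hyfix v hv ?_
    have h1 : ρ (y * v * y⁻¹) = s • ρ v := by
      rw [show y * v * y⁻¹ = v * (v⁻¹ * (y * v * y⁻¹)) by group, map_mul, hs, mul_smul_comm, mul_one]
    have hiter : ∀ i : ℕ, ρ (y ^ i * v * (y ^ i)⁻¹) = s ^ i • ρ v := by
      intro i
      induction i with
      | zero => simp
      | succ i ih =>
        rw [show y ^ (i + 1) * v * (y ^ (i + 1))⁻¹ = y ^ i * (y * v * y⁻¹) * (y ^ i)⁻¹ by rw [pow_succ]; group,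
          map_mul, map_mul, h1, mul_smul_comm, smul_mul_assoc, ← map_mul, ← map_mul, ih, smul_smul, ← pow_succ']
    have hvne : ρ v ≠ 0 := fun h => by
      obtain ⟨z, hz⟩ := exists_ne (0 : V)
      exact hz (rho_injective (ρ := ρ) v (by rw [h, LinearMap.zero_apply, LinearMap.zero_apply]))
    have hsp : s ^ p = 1 := by
      have h2 := hiter p
      rw [hyp, one_mul, inv_one, mul_one] at h2
      have h3 : (1 : K) • ρ v = s ^ p • ρ v := by rwa [one_smul]
      exact (smul_left_injective K hvne h3).symm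
    obtain ⟨e, he⟩ := hQ ⟨_, hcyQ v hv⟩
    have hse : s ^ q ^ e = 1 := hsinj _ _ (by
      have h2 := congrArg ρ (congrArg Subtype.val he)
      rw [Subgroup.coe_pow, map_pow, hs, smul_pow, one_pow, Subgroup.coe_one, map_one] at h2
      rw [h2, one_smul])
    have hs1 : s = 1 := by
      have h := pow_gcd_eq_one.mpr ⟨hsp, hse⟩
      rwa [show Nat.gcd p (q ^ e) = 1 from Nat.Coprime.pow_right e ((Nat.coprime_primes hp hq).mpr hqp.symm),
        pow_one] at h
    rw [h1, hs1, one_smul]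
  refine ⟨hclass, ?_⟩
  -- the dimension
  obtain ⟨j, hj⟩ := finrank_eq_prime_pow ρ Q hQ hirr
  have hD : 2 ≤ Module.finrank K V := by
    by_contra hlt
    have h1 : Module.finrank K V = 1 := by
      have := Module.finrank_pos (R := K) (M := V); omega
    obtain ⟨u0, hu0, hu0ne⟩ := hne
    apply hu0ne
    obtain ⟨z, hz⟩ := exists_ne (0 : V)
    have hall : ∀ A B : Module.End K V, A * B = B * A := by
      intro A B
      refine LinearMap.ext fun t => ?_
      have hspan := (finrank_eq_one_iff_of_nonzero' z hz).mp h1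
      obtain ⟨a, ha⟩ := hspan (A z)
      obtain ⟨b, hb⟩ := hspan (B z)
      obtain ⟨c, rfl⟩ := hspan t
      simp only [Module.End.mul_apply, map_smul, ← ha, ← hb, smul_smul, mul_comm]
    rw [map_mul, map_mul, hall (ρ y), mul_assoc, ← map_mul, mul_inv_cancel, map_one, mul_one]
  have hj1 : 1 ≤ j := by
    rcases Nat.eq_zero_or_pos j with rfl | h
    · rw [pow_zero] at hj; omega
    · exact h
  have hDK : (Module.finrank K V : K) ≠ 0 := by rw [hj, Nat.cast_pow]; exact pow_ne_zero j hqK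
  -- the scalars
  let M0 : Subgroup Q :=
    { carrier := {v | IsScalar ρ (v : G)}
      one_mem' := ⟨1, by rw [Subgroup.coe_one, map_one, one_smul]⟩
      mul_mem' := by
        rintro a b ⟨s, hs⟩ ⟨t, ht⟩
        exact ⟨s * t, by rw [Subgroup.coe_mul, map_mul, hs, ht, smul_mul_assoc, one_mul, smul_smul]⟩
      inv_mem' := by
        rintro a ⟨s, hs⟩
        refine ⟨s⁻¹, ?_⟩
        have h1 : ρ (a : G)⁻¹ * ρ (a : G) = 1 := by rw [← map_mul, inv_mul_cancel, map_one]
        rw [hs, mul_smul_comm, mul_one] at h1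
        rw [InvMemClass.coe_inv, ← h1, inv_smul_smul₀ (hs0 _ s hs)] }
  haveI hMn : M0.Normal := ⟨fun v hv g => by
    show IsScalar ρ ((g * v * g⁻¹ : Q) : G)
    rw [Subgroup.coe_mul, Subgroup.coe_mul, InvMemClass.coe_inv]
    exact isScalar_conj hv _⟩
  let X := Q ⧸ M0
  haveI : Fintype X := Fintype.ofFinite X
  let rep : X → Module.End K V := fun c => ρ (c.out : G)
  have hrep : ∀ v : Q, ∃ s : K, ρ (v : G) = s • rep (v : X) := by
    intro v
    have h1 : ((v : X).out)⁻¹ * v ∈ M0 := QuotientGroup.eq.mp (QuotientGroup.out_eq' _)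
    obtain ⟨s, hs⟩ := h1
    refine ⟨s, ?_⟩
    rw [Subgroup.coe_mul, InvMemClass.coe_inv, map_mul] at hs
    show ρ (v : G) = s • ρ ((v : X).out : G)
    rw [← mul_one (ρ ((v : X).out : G)), ← mul_smul_comm, ← hs, ← mul_assoc, ← map_mul, mul_inv_cancel, map_one,
      one_mul]
  have htr : ∀ u : Q, u ∉ M0 → LinearMap.trace K V (ρ (u : G)) = 0 := by
    intro u hu
    obtain ⟨t, ht, hne⟩ : ∃ t ∈ Q, ρ t * ρ (u : G) ≠ ρ (u : G) * ρ t := by
      by_contra hall
      push Not at hall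
      exact hu (schur hirr _ hall)
    obtain ⟨s, hs⟩ := hcomm t ht u u.2
    have hcs : ρ t * ρ (u : G) = s • (ρ (u : G) * ρ t) := by
      rw [← map_mul, show t * (u : G) = t * u * t⁻¹ * (u : G)⁻¹ * (u * t) by group, map_mul _ _ ((u : G) * t), hs,
        smul_mul_assoc, one_mul, map_mul]
    have h1 : LinearMap.trace K V (ρ (u : G)) = s * LinearMap.trace K V (ρ (u : G)) := by
      have h2 := LinearMap.trace_mul_comm K (ρ t * ρ (u : G)) (ρ t⁻¹)
      rw [← mul_assoc, ← map_mul ρ t⁻¹ t, inv_mul_cancel, map_one, one_mul] at h2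
      rw [hcs, smul_mul_assoc, mul_assoc, ← map_mul ρ t t⁻¹, mul_inv_cancel, map_one, mul_one, map_smul,
        smul_eq_mul] at h2
      exact h2.symm
    have hs1 : s ≠ 1 := fun h => hne (by rw [hcs, h, one_smul])
    have h2 : (s - 1) * LinearMap.trace K V (ρ (u : G)) = 0 := by rw [sub_mul, one_mul, ← h1, sub_self]
    exact (mul_eq_zero.mp h2).resolve_left (sub_ne_zero.mpr hs1)
  have hli : LinearIndependent K rep := by
    rw [Fintype.linearIndependent_iff]
    intro f hf c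
    have h1 := congrArg (fun A : Module.End K V => LinearMap.trace K V (A * ρ (c.out : G)⁻¹)) hf
    simp only [Finset.sum_mul, map_sum, smul_mul_assoc, map_smul, zero_mul, map_zero, rep, ← map_mul] at h1
    rw [Finset.sum_eq_single c] at h1
    · rw [mul_inv_cancel, map_one, LinearMap.trace_one, smul_eq_mul] at h1
      exact (mul_eq_zero.mp h1).resolve_right hDK
    · intro d _ hd
      have h2 : d.out * c.out⁻¹ ∉ M0 := fun hm => hd (by
        rw [← QuotientGroup.out_eq' d, ← QuotientGroup.out_eq' c, QuotientGroup.eq]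
        have h6 := hMn.conj_mem _ (inv_mem hm) d.out⁻¹
        simpa [mul_assoc] using h6)
      rw [smul_eq_mul]
      exact mul_eq_zero_of_right _ (by simpa using htr _ h2)
    · simp
  let f : Q →* Module.End K V := ρ.comp Q.subtype
  have hspan : Submodule.span K (Set.range rep) = ⊤ := by
    rw [eq_top_iff]
    have hadj : Algebra.adjoin K (Set.range f) = ⊤ := by
      refine FitHeight.subalgebra_eq_top _ fun U hU => hirr U fun m hm v hv => ?_
      exact hU _ (Algebra.subset_adjoin ⟨⟨m, hm⟩, rfl⟩) v hv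
    have h1 : Subalgebra.toSubmodule (Algebra.adjoin K (Set.range f)) = Submodule.span K (Set.range f) := by
      rw [Algebra.adjoin_eq_span, ← MonoidHom.coe_mrange, Submonoid.closure_eq]
    rw [hadj, Algebra.top_toSubmodule] at h1
    rw [h1, Submodule.span_le]
    rintro _ ⟨v, rfl⟩
    obtain ⟨s, hs⟩ := hrep v
    show ρ (v : G) ∈ _
    rw [hs]
    exact Submodule.smul_mem _ _ (Submodule.subset_span ⟨_, rfl⟩)
  have hcard : Fintype.card X = Module.finrank K V ^ 2 := by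
    have h := Module.finrank_eq_card_basis (Module.Basis.mk hli hspan.ge)
    rw [Module.finrank_linearMap] at h
    rw [← h, sq]
  -- conjugation by `x`
  have hxM : ∀ v : Q, v ∈ M0 ↔ Q.normalizerMonoidHom ⟨x, hxQ⟩ v ∈ M0 := fun v => by
    show IsScalar ρ (v : G) ↔ IsScalar ρ (x * (v : G) * x⁻¹)
    refine ⟨fun h => isScalar_conj h x, fun h => ?_⟩
    simpa [mul_assoc] using isScalar_conj h x⁻¹
  let σ : Equiv.Perm X := (QuotientGroup.congr M0 M0 (Q.normalizerMonoidHom ⟨x, hxQ⟩) (by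
    ext v
    constructor
    · rintro ⟨u, hu, rfl⟩
      exact (hxM u).mp hu
    · intro hv
      exact ⟨(Q.normalizerMonoidHom ⟨x, hxQ⟩).symm v, (hxM _).mpr (by rwa [MulEquiv.apply_symm_apply]),
        MulEquiv.apply_symm_apply _ v⟩)).toEquiv
  have hσi : ∀ (i : ℕ) (v : Q), (σ ^ i) (v : X) =
      ((⟨x ^ i * (v : G) * (x ^ i)⁻¹, (Subgroup.mem_normalizer_iff.mp (Subgroup.pow_mem _ hxQ i) _).mp v.2⟩ : Q) : X) := by
    intro i
    induction i with
    | zero => intro v; rw [pow_zero, Equiv.Perm.one_apply]; congr 1; exact Subtype.ext (by simp)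
    | succ i ih =>
      intro v
      rw [pow_succ', Equiv.Perm.mul_apply, ih]
      show ((Q.normalizerMonoidHom ⟨x, hxQ⟩ _ : Q) : X) = _
      congr 1
      refine Subtype.ext ?_
      show x * (x ^ i * (v : G) * (x ^ i)⁻¹) * x⁻¹ = x ^ (i + 1) * (v : G) * (x ^ (i + 1))⁻¹
      rw [pow_succ']; group
  have hσN : σ ^ p ^ n = 1 := Equiv.ext fun c => QuotientGroup.induction_on c fun v => by
    rw [hσi]
    show _ = (v : X)
    congr 1
    exact Subtype.ext (by simp [hxN])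
  have hx₀ : σ ((1 : Q) : X) = ((1 : Q) : X) := by
    show ((Q.normalizerMonoidHom ⟨x, hxQ⟩ 1 : Q) : X) = _
    rw [map_one]
  have hfree : ∀ (i : ℕ) (c : X), 0 < i → i < p ^ n → (σ ^ i) c = c → c = ((1 : Q) : X) := by
    intro i c hi hin hfix
    obtain ⟨b, hbn, hb⟩ := (Nat.dvd_prime_pow hp).mp (Nat.gcd_dvd_right i (p ^ n))
    have hbn' : b ≤ n - 1 := by
      by_contra hlt
      have : b = n := by omega
      subst this
      have := Nat.le_of_dvd hi (hb ▸ Nat.gcd_dvd_left i (p ^ b))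
      omega
    have h1 : Function.IsPeriodicPt σ (p ^ n) c := by
      show (⇑σ)^[p ^ n] c = c
      rw [← Equiv.Perm.coe_pow, hσN]; rfl
    have h2 : Function.IsPeriodicPt σ i c := by
      show (⇑σ)^[i] c = c
      rw [← Equiv.Perm.coe_pow]; exact hfix
    have h3 := (h2.gcd h1).mul_const (p ^ (n - 1 - b))
    rw [hb, ← pow_add, Nat.add_sub_cancel' hbn'] at h3
    have h4 : (σ ^ p ^ (n - 1)) c = c := by rw [Equiv.Perm.coe_pow]; exact h3
    obtain ⟨v, rfl⟩ := QuotientGroup.mk_surjective c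
    rw [hσi, QuotientGroup.eq] at h4
    refine QuotientGroup.eq.mpr ?_
    rw [mul_one]
    refine inv_mem (hclass v v.2 ?_)
    have h6 : (⟨y * (v : G) * y⁻¹, hyc v v.2⟩ : Q)⁻¹ * v ∈ M0 := h4
    have h5 := M0.inv_mem h6
    rw [mul_inv_rev, inv_inv] at h5
    exact h5
  have hF : ρ x ^ p ^ n = 1 := by rw [← map_pow, hxN, map_one]
  have hsum' : ∑ i ∈ Finset.range (p ^ n), ρ x ^ i = 0 := by simpa only [map_pow] using hsum
  have hNK : ((p ^ n : ℕ) : K) ≠ 0 := by rw [Nat.cast_pow]; exact pow_ne_zero n hpK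
  have hb1 := FitHeight.sq_le_mul_finrank_centralizer hNK hF hsum'
  have hb2 := mul_finrank_centralizer_le (Nat.pow_pos hp.pos) hNK (G := ρ x⁻¹)
    (by rw [← map_mul, inv_mul_cancel, map_one]) hF σ ((1 : Q) : X) hσN hfree hx₀ rep (fun c => by
      obtain ⟨s, hs⟩ := hrep (Q.normalizerMonoidHom ⟨x, hxQ⟩ c.out)
      refine ⟨s, ?_⟩
      rw [← map_mul, ← map_mul]
      refine hs.trans ?_
      congr 2
      conv_rhs => rw [← QuotientGroup.out_eq' c]
      rfl) hspan
  have hb3 := dvd_card_sub_one σ (Nat.pow_pos hp.pos) hσN _ hx₀ hfree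
  rw [hcard] at hb2 hb3
  refine ⟨j, hj1, by rw [← hj]; exact eq_sub_one_of_bounds hp hp2 hD hb1 hb2 hb3, fun M hM => ?_⟩
  have hMM : M = M0 := Subgroup.ext fun v => hM v
  rw [hMM, Subgroup.index_eq_card, Nat.card_eq_fintype_card, ← hj]
  exact hcard

end Cfsg.Agent.Lib.ShultGross
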